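import Cfsg.Agent.C3Max.Basic
import Mathlib.FieldTheory.Finite.Basic
import Cfsg.Agent.LinAlg.Witt.Bases

/-!
An extension field with an involution: fixed elements, and the numbers of elements.
-/

set_option autoImplicit false
set_option linter.unusedSectionVars false

namespace CfsgLib.C3Unit91

open Module

variable {F L : Type*} [Field F] [Field L] [Algebra F L] [Finite L] [FiniteDimensional F L]
  [Algebra.IsSeparable F L]

local notation "Tr" => Algebra.trace F L

/-- An involution of the extension restricting to a non-trivial involution of the ground field. -/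
structure Conj (σ : F ≃+* F) (τ : L ≃+* L) : Prop where
  inv : ∀ x, σ (σ x) = x
  ne : ∃ θ, σ θ ≠ θ
  invol : ∀ x, τ (τ x) = x
  base : ∀ c, τ (algebraMap F L c) = algebraMap F L (σ c)
  tr : ∀ x, Tr (τ x) = σ (Tr x)

variable {σ : F ≃+* F} {τ : L ≃+* L}

/-- The fixed elements of an automorphism. -/
def fixd {K : Type*} [Field K] (g : K ≃+* K) : AddSubgroup K where
  carrier := {x | g x = x}
  zero_mem' := map_zero g
  add_mem' {a b} ha hb := by
    show g (a + b) = a + b
    rw [map_add, ha, hb]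
  neg_mem' {a} ha := by
    show g (-a) = -a
    rw [map_neg, ha]

lemma mem_fixd {K : Type*} [Field K] {g : K ≃+* K} {x : K} : x ∈ fixd g ↔ g x = x := Iff.rfl

variable (hc : Conj σ τ)
include hc

omit [Finite L] [FiniteDimensional F L] [Algebra.IsSeparable F L] in
lemma τ_smul (c : F) (x : L) : τ (c • x) = σ c • τ x := by
  rw [Algebra.smul_def, map_mul, hc.base, ← Algebra.smul_def]

lemma exists_skew : ∃ ε : F, ε ≠ 0 ∧ ε + σ ε = 0 := by
  obtain ⟨θ, hθ⟩ := hc.ne
  exact ⟨θ - σ θ, sub_ne_zero.2 (Ne.symm hθ), by rw [map_sub, hc.inv]; ring⟩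

lemma exists_tr_one : ∃ a : F, a + σ a = 1 := by
  obtain ⟨θ, hθ⟩ := hc.ne
  obtain ⟨a, ha⟩ : ∃ a : F, a + σ a ≠ 0 := by
    by_contra! h
    refine hθ ?_
    have h1 := h 1
    rw [map_one] at h1
    linear_combination h θ - θ * h1
  refine ⟨a / (a + σ a), ?_⟩
  rw [map_div₀, map_add, hc.inv, add_comm (σ a) a, ← add_div, div_self ha]

lemma exists_norm {r : F} (hr : σ r = r) : ∃ a : F, a * σ a = r := by
  haveI : Finite F := Finite.of_injective _ (algebraMap F L).injective
  obtain ⟨a, ha⟩ := CfsgLib.LinAlg.Witt.exists_norm_eq (σ : F →+* F)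
    (fun h => by obtain ⟨θ, hθ⟩ := hc.ne; exact hθ (RingHom.congr_fun h θ)) hc.inv hr
  exact ⟨a, by rw [mul_comm]; exact ha⟩

/-- Decomposition along the fixed elements and a multiple of them. -/
lemma exists_decomp {θ : F} (hθ : σ θ ≠ θ) (l : L) :
    ∃ a b, a ∈ fixd τ ∧ b ∈ fixd τ ∧ l = a + θ • b := by
  set t : L := algebraMap F L θ with ht
  have htt : τ t = algebraMap F L (σ θ) := hc.base θ
  have hd : t - τ t ≠ 0 := sub_ne_zero.2 fun h => hθ ((algebraMap F L).injective (htt ▸ h.symm))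
  refine ⟨l - t * ((l - τ l) / (t - τ t)), (l - τ l) / (t - τ t), ?_, ?_, ?_⟩
  · show τ _ = _
    rw [map_sub, map_mul, map_div₀, map_sub, map_sub, hc.invol, hc.invol]
    have e : (τ l - l) / (τ t - t) = (l - τ l) / (t - τ t) := by
      rw [← neg_sub l, ← neg_sub t, neg_div_neg_eq]
    rw [e]
    field_simp
    ring
  · show τ _ = _
    rw [map_div₀, map_sub, map_sub, hc.invol, hc.invol, ← neg_sub l, ← neg_sub t, neg_div_neg_eq]
  · rw [Algebra.smul_def, ← ht]; ring

lemma decomp_unique {θ : F} (hθ : σ θ ≠ θ) {a b : L} (ha : τ a = a) (hb : τ b = b)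
    (h : a + θ • b = 0) : a = 0 ∧ b = 0 := by
  have h2 := congrArg τ h
  rw [map_add, τ_smul hc, ha, hb, map_zero] at h2
  have h3 : (θ - σ θ) • b = 0 := by
    rw [sub_smul]
    linear_combination (norm := module) h - h2
  have hb0 : b = 0 := (smul_eq_zero.1 h3).resolve_left (sub_ne_zero.2 (Ne.symm hθ))
  exact ⟨by simpa [hb0] using h, hb0⟩

lemma card_fixd_sq : Nat.card (fixd τ) * Nat.card (fixd τ) = Nat.card L := by
  obtain ⟨θ, hθ⟩ := hc.ne
  rw [← Nat.card_prod]
  refine Nat.card_eq_of_bijective (fun x : fixd τ × fixd τ => (x.1 : L) + θ • (x.2 : L)) ⟨?_, ?_⟩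
  · rintro ⟨a, b⟩ ⟨a', b'⟩ h
    obtain ⟨h1, h2⟩ := decomp_unique hc hθ (a := (a : L) - a') (b := (b : L) - b')
      (by rw [map_sub, a.2, a'.2]) (by rw [map_sub, b.2, b'.2])
      (by simp only [smul_sub]; linear_combination (norm := module) h)
    exact Prod.ext (Subtype.ext (sub_eq_zero.1 h1)) (Subtype.ext (sub_eq_zero.1 h2))
  · intro l
    obtain ⟨a, b, ha, hb, rfl⟩ := exists_decomp hc hθ l
    exact ⟨(⟨a, ha⟩, ⟨b, hb⟩), rfl⟩

/-- The number of fixed scalars. -/
lemma card_base : Nat.card F = Nat.card (fixd σ) ^ 2 := by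
  haveI : Finite F := Finite.of_injective _ (algebraMap F L).injective
  obtain ⟨θ, hθ⟩ := hc.ne
  rw [sq, ← Nat.card_prod]
  refine (Nat.card_eq_of_bijective (fun x : fixd σ × fixd σ => (x.1 : F) + θ * (x.2 : F)) ⟨?_, ?_⟩).symm
  · rintro ⟨a, b⟩ ⟨a', b'⟩ h
    simp only at h
    have h2 := congrArg σ h
    simp only [map_add, map_mul, mem_fixd.1 a.2, mem_fixd.1 a'.2, mem_fixd.1 b.2, mem_fixd.1 b'.2] at h2
    have h3 : (θ - σ θ) * ((b : F) - b') = 0 := by linear_combination h - h2
    have hb : (b : F) = b' := sub_eq_zero.1 ((mul_eq_zero.1 h3).resolve_left (sub_ne_zero.2 (Ne.symm hθ)))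
    exact Prod.ext (Subtype.ext (by rw [hb] at h; exact add_right_cancel h)) (Subtype.ext hb)
  · intro c
    have hd : θ - σ θ ≠ 0 := sub_ne_zero.2 (Ne.symm hθ)
    have e : (σ c - c) / (σ θ - θ) = (c - σ c) / (θ - σ θ) := by
      rw [← neg_sub c, ← neg_sub θ, neg_div_neg_eq]
    refine ⟨(⟨c - θ * ((c - σ c) / (θ - σ θ)), ?_⟩, ⟨(c - σ c) / (θ - σ θ), ?_⟩), by ring⟩
    · show σ _ = _
      rw [map_sub, map_mul, map_div₀, map_sub, map_sub, hc.inv, hc.inv, e]
      field_simp
      ring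
    · show σ _ = _
      rw [map_div₀, map_sub, map_sub, hc.inv, hc.inv, e]

lemma two_le_card_base : 2 ≤ Nat.card (fixd σ) := by
  haveI : Finite F := Finite.of_injective _ (algebraMap F L).injective
  rw [← not_lt, Nat.lt_succ_iff]
  intro h
  have := card_base hc
  have h1 : 1 < Nat.card F := Finite.one_lt_card
  interval_cases hk : Nat.card (fixd σ) <;> omega

lemma card_fixd : Nat.card (fixd τ) = Nat.card (fixd σ) ^ finrank F L := by
  refine Nat.mul_self_inj.1 ?_
  rw [card_fixd_sq hc, Module.natCard_eq_pow_finrank (K := F), card_base hc, ← pow_add, ← pow_mul,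
    two_mul]

lemma card_submodule (C : Submodule F L) : Nat.card C = Nat.card (fixd σ) ^ (2 * finrank F C) := by
  haveI : Finite F := Finite.of_injective _ (algebraMap F L).injective
  rw [Module.natCard_eq_pow_finrank (K := F), card_base hc, ← pow_mul]

/-- The span of fixed elements is as large as their square. -/
lemma sq_card_le_span {W : AddSubgroup L} (hW : W ≤ fixd τ) :
    Nat.card W * Nat.card W ≤ Nat.card (Submodule.span F (W : Set L)) := by
  obtain ⟨θ, hθ⟩ := hc.ne
  rw [← Nat.card_prod]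
  refine Nat.card_le_card_of_injective (fun x : W × W =>
    (⟨(x.1 : L) + θ • (x.2 : L), Submodule.add_mem _ (Submodule.subset_span x.1.2)
      (Submodule.smul_mem _ _ (Submodule.subset_span x.2.2))⟩ : Submodule.span F (W : Set L))) ?_
  rintro ⟨a, b⟩ ⟨a', b'⟩ h
  have h' := congrArg Subtype.val h
  obtain ⟨h1, h2⟩ := decomp_unique hc hθ (a := (a : L) - a') (b := (b : L) - b')
    (by rw [map_sub, hW a.2, hW a'.2]) (by rw [map_sub, hW b.2, hW b'.2])
    (by simp only [smul_sub]; linear_combination (norm := module) h')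
  exact Prod.ext (Subtype.ext (sub_eq_zero.1 h1)) (Subtype.ext (sub_eq_zero.1 h2))

/-- A non-zero trace functional is non-zero on the fixed elements. -/
lemma exists_real_trace {n : L} (hn : n ≠ 0) : ∃ l, τ l = l ∧ Tr (l * n) ≠ 0 := by
  obtain ⟨θ, hθ⟩ := hc.ne
  obtain ⟨m, hm⟩ := Algebra.trace_surjective F L 1
  obtain ⟨a, b, ha, hb, hab⟩ := exists_decomp hc hθ (m * n⁻¹)
  by_contra! h
  have h1 : Tr (m * n⁻¹ * n) = 0 := by
    rw [hab, add_mul, map_add, smul_mul_assoc, map_smul, h a ha, h b hb, smul_zero, add_zero]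
  rw [inv_mul_cancel_right₀ hn, hm] at h1
  exact one_ne_zero h1

/-- Real traces take every fixed value. -/
lemma exists_real_trace_eq {n : L} (hn : n ≠ 0) (hn' : τ n = n) {c : F} (hc' : σ c = c) :
    ∃ l, τ l = l ∧ Tr (l * n) = c := by
  obtain ⟨l, hl, hl'⟩ := exists_real_trace hc hn
  refine ⟨(c / Tr (l * n)) • l, ?_, ?_⟩
  · rw [τ_smul hc, hl, map_div₀, hc', ← hc.tr, map_mul, hl, hn']
  · rw [smul_mul_assoc, map_smul, smul_eq_mul, div_mul_cancel₀ _ hl']

end CfsgLib.C3Unit91
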