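import Cfsg.Agent.C3Unit91.Basic

/-!
The coefficients of a translate of a line off the orthogonal space are one-dimensional (degree three or five).
-/

set_option autoImplicit false
set_option linter.unusedSectionVars false

namespace CfsgLib.C3Unit91

open Module CfsgLib.C3Max

variable {F L : Type*} [Field F] [Field L] [Algebra F L] [Finite L] [FiniteDimensional F L]
  [Algebra.IsSeparable F L] {σ : F ≃+* F} {τ : L ≃+* L}

local notation "Tr" => Algebra.trace F L

/-- The submodule conjugate to a given one. -/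
def conjSub (hc : Conj σ τ) (G : Submodule F L) : Submodule F L where
  carrier := {x | τ x ∈ G}
  zero_mem' := by simp
  add_mem' {a b} ha hb := by
    show τ (a + b) ∈ G
    rw [map_add]; exact G.add_mem ha hb
  smul_mem' c a ha := by
    show τ (c • a) ∈ G
    rw [τ_smul hc]; exact G.smul_mem _ ha

variable (hc : Conj σ τ)
include hc

lemma finrank_conjSub (G : Submodule F L) : finrank F (conjSub hc G) = finrank F G := by
  have h : Nat.card (conjSub hc G) = Nat.card G :=
    Nat.card_congr (τ.toEquiv.subtypeEquiv fun x => Iff.rfl)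
  rw [card_submodule hc, card_submodule hc] at h
  have := Nat.pow_right_injective (two_le_card_base hc) h
  omega

/-- A subspace orthogonal to another of complementary dimension is the whole orthogonal. -/
lemma mem_of_perp {C G : Submodule F L} (hCG : ∀ c ∈ C, ∀ g ∈ G, Tr (c * τ g) = 0)
    (hdim : finrank F C + finrank F G = finrank F L) {x : L} (hx : ∀ g ∈ G, Tr (x * τ g) = 0) :
    x ∈ C := by
  have hle : C ≤ (Algebra.traceForm F L).orthogonal (conjSub hc G) := fun c hc' g hg => by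
    show Algebra.traceForm F L g c = 0
    rw [Algebra.traceForm_apply, mul_comm, ← hc.invol g]
    exact hCG c hc' _ hg
  have horth := LinearMap.BilinForm.finrank_orthogonal (traceForm_nondegenerate F L) (conjSub hc G)
  have heq := Submodule.eq_of_le_of_finrank_le hle (by
    rw [finrank_conjSub hc] at horth
    omega)
  rw [heq]
  intro g hg
  show Algebra.traceForm F L g x = 0
  rw [Algebra.traceForm_apply, mul_comm, ← hc.invol g]
  exact hx _ hg

/-- Two coefficients cannot be independent in degree at most five. -/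
lemma finrank_two_ne (h5 : finrank F L = 5) (hr : (finrank F L).Prime) {C G : Submodule F L}
    (hCG : ∀ c ∈ C, ∀ g ∈ G, Tr (c * τ g) = 0) (hd : finrank F C = 3) (hk : finrank F G = 2)
    (hst : ∀ l g, τ l = l → g ∈ G → g ≠ 0 → l * g ∈ C → ∀ g' ∈ G, l * g' ∈ C) : False := by
  haveI : Finite F := Finite.of_injective _ (algebraMap F L).injective
  set Q := Nat.card (fixd σ) with hQ
  have hQ2 : 2 ≤ Q := two_le_card_base hc
  let bG := Module.finBasisOfFinrankEq F G hk
  set g₁ : L := (bG 0 : L) with hg₁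
  set g₂ : L := (bG 1 : L) with hg₂
  have hind : ∀ s₁ s₂ : F, s₁ • g₁ + s₂ • g₂ = 0 → s₁ = 0 ∧ s₂ = 0 := fun s₁ s₂ h => by
    have h' := Fintype.linearIndependent_iff.1 bG.linearIndependent ![s₁, s₂]
      (by rw [Fin.sum_univ_two]; exact Subtype.ext (by simpa using h))
    exact ⟨by simpa using h' 0, by simpa using h' 1⟩
  have hg₁0 : g₁ ≠ 0 := fun h => one_ne_zero (hind 1 0 (by simp [h])).1
  have hsp : ∀ g ∈ G, ∃ s₁ s₂ : F, g = s₁ • g₁ + s₂ • g₂ := fun g hg =>
    ⟨bG.repr ⟨g, hg⟩ 0, bG.repr ⟨g, hg⟩ 1, by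
      have h := congrArg Subtype.val (bG.sum_repr ⟨g, hg⟩)
      rw [Fin.sum_univ_two] at h
      simpa using h.symm⟩
  let A : L →ₗ[F] F := Tr ∘ₗ LinearMap.mulRight F (g₁ * τ g₁)
  let Bm : L →ₗ[F] F := Tr ∘ₗ LinearMap.mulRight F (g₁ * τ g₂)
  let E : L →ₗ[F] F := Tr ∘ₗ LinearMap.mulRight F (g₂ * τ g₂)
  have hA : ∀ l, A l = Tr (l * (g₁ * τ g₁)) := fun l => rfl
  have hB : ∀ l, Bm l = Tr (l * (g₁ * τ g₂)) := fun l => rfl
  have hE : ∀ l, E l = Tr (l * (g₂ * τ g₂)) := fun l => rfl
  have hn₁ : τ (g₁ * τ g₁) = g₁ * τ g₁ := by rw [map_mul, hc.invol, mul_comm]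
  have hAr : ∀ l, τ l = l → σ (A l) = A l := fun l hl => by
    rw [hA, ← hc.tr, map_mul τ, hl, hn₁]
  have hEr : ∀ l, τ l = l → σ (E l) = E l := fun l hl => by
    rw [hE, ← hc.tr, map_mul τ, hl, map_mul τ, hc.invol, mul_comm (τ g₂)]
  have hBc : ∀ l, τ l = l → Tr (l * (g₂ * τ g₁)) = σ (Bm l) := fun l hl => by
    rw [hB, ← hc.tr, map_mul τ, hl, map_mul τ, hc.invol, mul_comm (τ g₁)]
  -- degenerate members kill everything
  have hdeg : ∀ l, τ l = l → A l * E l = Bm l * σ (Bm l) → A l = 0 ∧ Bm l = 0 := by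
    intro l hl hdet
    obtain ⟨s₁, s₂, hs, e1, e2⟩ : ∃ s₁ s₂ : F, (s₁ ≠ 0 ∨ s₂ ≠ 0) ∧
        s₁ * A l + s₂ * σ (Bm l) = 0 ∧ s₁ * Bm l + s₂ * E l = 0 := by
      by_cases ha : A l = 0
      · have hb : Bm l = 0 := by
          rw [ha, zero_mul, eq_comm, mul_eq_zero] at hdet
          rcases hdet with h | h
          · exact h
          · exact σ.injective (h.trans (map_zero σ).symm)
        exact ⟨1, 0, Or.inl one_ne_zero, by simp [ha], by simp [hb]⟩
      · exact ⟨-σ (Bm l), A l, Or.inr ha, by ring, by linear_combination hdet⟩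
    set g := s₁ • g₁ + s₂ • g₂ with hg
    have hg0 : g ≠ 0 := fun h => by
      obtain ⟨h1, h2⟩ := hind _ _ h
      exact hs.elim (fun h => h h1) (fun h => h h2)
    have hgG : g ∈ G := G.add_mem (G.smul_mem _ (bG 0).2) (G.smul_mem _ (bG 1).2)
    have hmem : l * g ∈ C := by
      refine mem_of_perp hc hCG (by omega) fun g' hg' => ?_
      obtain ⟨t₁, t₂, rfl⟩ := hsp g' hg'
      have e1' : Tr (l * (g * τ g₁)) = 0 := by
        rw [hg, add_mul, mul_add, map_add, smul_mul_assoc, smul_mul_assoc, mul_smul_comm, mul_smul_comm,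
          map_smul, map_smul, smul_eq_mul, smul_eq_mul, ← hA, hBc l hl, e1]
      have e2' : Tr (l * (g * τ g₂)) = 0 := by
        rw [hg, add_mul, mul_add, map_add, smul_mul_assoc, smul_mul_assoc, mul_smul_comm, mul_smul_comm,
          map_smul, map_smul, smul_eq_mul, smul_eq_mul, ← hB, ← hE, e2]
      rw [map_add, τ_smul hc, τ_smul hc, mul_add, map_add, mul_smul_comm, mul_smul_comm, map_smul,
        map_smul, mul_assoc, mul_assoc, e1', e2', smul_zero, smul_zero, add_zero]
    have hall := hst l g hl hgG hg0 hmem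
    constructor
    · rw [hA, ← mul_assoc]; exact hCG _ (hall _ (bG 0).2) _ (bG 0).2
    · rw [hB, ← mul_assoc]; exact hCG _ (hall _ (bG 0).2) _ (bG 1).2
  -- the fixed elements killing everything are few
  let W : AddSubgroup L :=
    { carrier := {l | τ l = l ∧ ∀ g ∈ G, l * g ∈ C}
      zero_mem' := ⟨map_zero τ, fun g _ => by simp⟩
      add_mem' := fun {a b} ha hb => ⟨by rw [map_add, ha.1, hb.1], fun g hg => by
        rw [add_mul]; exact C.add_mem (ha.2 g hg) (hb.2 g hg)⟩
      neg_mem' := fun {a} ha => ⟨by rw [map_neg, ha.1], fun g hg => by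
        rw [neg_mul]; exact C.neg_mem (ha.2 g hg)⟩ }
  have hW : Nat.card W ≤ Q ^ 2 := by
    by_contra! hlt
    set D := Submodule.span F (W : Set L) with hD
    have h1 : Q ^ 4 < Nat.card D := lt_of_lt_of_le (by nlinarith) (sq_card_le_span hc (W := W) fun l hl => hl.1)
    rw [card_submodule hc, Nat.pow_lt_pow_iff_right (by omega)] at h1
    have hD1 : 3 ≤ finrank F D := by omega
    have hmul : ∀ g ∈ G, ∀ y ∈ D, y * g ∈ C := by
      intro g hg y hy
      have : D ≤ C.comap (LinearMap.mulRight F g) := Submodule.span_le.2 fun l hl => hl.2 g hg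
      exact this hy
    have heq : D.map (LinearMap.mulRight F g₁) = C := by
      refine Submodule.eq_of_le_of_finrank_le (by rintro _ ⟨y, hy, rfl⟩; exact hmul _ (bG 0).2 y hy) ?_
      rw [← (Submodule.equivMapOfInjective (LinearMap.mulRight F g₁) (mul_left_injective₀ hg₁0) D).finrank_eq, hd]
      exact hD1
    have hxF : g₂ / g₁ ∉ (algebraMap F L).range := by
      rintro ⟨c, hcx⟩
      have := (hind c (-1) (by
        rw [Algebra.smul_def, hcx, div_mul_cancel₀ _ hg₁0, neg_one_smul, add_neg_cancel])).2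
      simp at this
    have hinv : ∀ y ∈ D, g₂ / g₁ * y ∈ D := by
      intro y hy
      have h := hmul g₂ (bG 1).2 y hy
      rw [← heq] at h
      obtain ⟨z, hz, hzy⟩ := h
      change z * g₁ = y * g₂ at hzy
      rwa [show g₂ / g₁ * y = z by field_simp; linear_combination -hzy]
    obtain ⟨y, hy, hy0⟩ : ∃ y ∈ D, y ≠ 0 := by
      by_contra! h
      rw [(Submodule.eq_bot_iff _).2 h, finrank_bot] at hD1
      omega
    have htop : D = ⊤ := eq_top_iff.2 fun l _ => by
      have := mul_mem_of_adjoin hr hxF (C := D) hinv (l * y⁻¹) hy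
      rwa [inv_mul_cancel_right₀ hy0] at this
    have h2 : finrank F D ≤ 3 := by
      rw [(Submodule.equivMapOfInjective (LinearMap.mulRight F g₁) (mul_left_injective₀ hg₁0) D).finrank_eq, ← hd]
      exact le_of_eq (congrArg (fun N : Submodule F L => finrank F N) heq)
    rw [htop, finrank_top, h5] at h2
    omega
  -- the kernel of the first entry maps onto the ground field
  let K : AddSubgroup L := fixd τ ⊓ (LinearMap.ker A).toAddSubgroup
  have hKW : ∀ l ∈ K, Bm l = 0 → l ∈ W := fun l hl hb => by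
    refine ⟨hl.1, fun g hg => ?_⟩
    have ha : A l = 0 := hl.2
    refine hst l g₁ hl.1 (bG 0).2 hg₁0 (mem_of_perp hc hCG (by omega) fun g' hg' => ?_) g hg
    obtain ⟨t₁, t₂, rfl⟩ := hsp g' hg'
    rw [map_add, τ_smul hc, τ_smul hc, mul_add, map_add, mul_smul_comm, mul_smul_comm, map_smul, map_smul,
      mul_assoc, mul_assoc, ← hA, ← hB, ha, hb, smul_zero, smul_zero, add_zero]
  have hK : Q ^ 4 ≤ Nat.card K := by
    let f : fixd τ →+ fixd σ :=
      { toFun := fun l => ⟨A l, hAr l l.2⟩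
        map_zero' := Subtype.ext (map_zero A)
        map_add' := fun a b => Subtype.ext (map_add A _ _) }
    have h1 := f.ker.card_eq_card_quotient_mul_card_addSubgroup
    have h2 : Nat.card (fixd τ ⧸ f.ker) ≤ Q := by
      rw [Nat.card_congr (QuotientAddGroup.quotientKerEquivRange f).toEquiv]
      exact Nat.card_le_card_of_injective _ Subtype.val_injective
    have h3 : Nat.card f.ker ≤ Nat.card K := Nat.card_le_card_of_injective
      (fun l => (⟨(l : fixd τ), (l : fixd τ).2, congrArg Subtype.val l.2⟩ : K))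
      fun a b h => Subtype.ext (Subtype.ext (congrArg Subtype.val h :))
    rw [card_fixd hc, h5] at h1
    have h4 : Q ^ 5 ≤ Q * Nat.card K := by
      rw [h1]; exact Nat.mul_le_mul h2 h3
    rw [pow_succ'] at h4
    exact Nat.le_of_mul_le_mul_left h4 (by omega)
  have hsurj : ∀ β, ∃ l ∈ K, Bm l = β := by
    let f : K →+ F := Bm.toAddMonoidHom.comp K.subtype
    have h1 := f.ker.card_eq_card_quotient_mul_card_addSubgroup
    rw [Nat.card_congr (QuotientAddGroup.quotientKerEquivRange f).toEquiv] at h1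
    have h3 : Nat.card f.ker ≤ Nat.card W := Nat.card_le_card_of_injective
      (fun l => (⟨((l : K) : L), hKW _ (l : K).2 l.2⟩ : W))
      fun a b h => Subtype.ext (Subtype.ext (congrArg Subtype.val h :))
    have h4 : Nat.card F ≤ Nat.card f.range := by
      rw [card_base hc]
      nlinarith [Nat.mul_le_mul_left (Nat.card f.range) (h3.trans hW)]
    have h5 : f.range = ⊤ := AddSubgroup.eq_top_of_le_card _ h4
    intro β
    obtain ⟨l, hl⟩ := (h5 ▸ AddSubgroup.mem_top β : β ∈ f.range)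
    exact ⟨l, l.2, hl⟩
  -- a degenerate member
  obtain ⟨l₀, hl₀, hA₀⟩ := exists_real_trace_eq hc (n := g₁ * τ g₁) (mul_ne_zero hg₁0
    (by simpa using hg₁0)) hn₁ (c := 1) (map_one σ)
  obtain ⟨θ, hθ⟩ := hc.ne
  obtain ⟨k₁, hk₁, hk₁'⟩ := hsurj 1
  obtain ⟨k₂, hk₂, hk₂'⟩ := hsurj θ
  have hd' : θ - σ θ ≠ 0 := sub_ne_zero.2 (Ne.symm hθ)
  have hd'' : σ θ - θ ≠ 0 := sub_ne_zero.2 hθ
  -- the linear form on the kernel
  set ρ := (E k₂ - σ θ * E k₁) / (θ - σ θ) with hρ
  set b₀ := Bm l₀ with hb₀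
  set e₀ := E l₀ with he₀
  have hfix : σ (e₀ - ρ * b₀ - σ ρ * σ b₀ + ρ * σ ρ) = e₀ - ρ * b₀ - σ ρ * σ b₀ + ρ * σ ρ := by
    rw [map_add, map_sub, map_sub, map_mul, map_mul, map_mul, hc.inv, hc.inv, he₀, hEr l₀ hl₀]
    ring
  obtain ⟨m, hm⟩ := exists_norm hc hfix
  set t := m + σ ρ with ht
  set β := t - b₀ with hβ
  set a₁ := (θ * σ β - σ θ * β) / (θ - σ θ) with ha₁
  set a₂ := (β - σ β) / (θ - σ θ) with ha₂
  have eall : ∀ b : F, σ ((θ * σ b - σ θ * b) / (θ - σ θ)) = (θ * σ b - σ θ * b) / (θ - σ θ) ∧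
      σ ((b - σ b) / (θ - σ θ)) = (b - σ b) / (θ - σ θ) := fun b => by
    constructor
    · rw [map_div₀, map_sub, map_sub, map_mul, map_mul, hc.inv, hc.inv, ← neg_sub (θ * σ b), ← neg_sub θ,
        neg_div_neg_eq]
    · rw [map_div₀, map_sub, map_sub, hc.inv, hc.inv, ← neg_sub b, ← neg_sub θ, neg_div_neg_eq]
  have ea₁ : σ a₁ = a₁ := (eall β).1
  have ea₂ : σ a₂ = a₂ := (eall β).2
  set l := l₀ + a₁ • k₁ + a₂ • k₂ with hl
  have hlr : τ l = l := by
    rw [hl, map_add, map_add, τ_smul hc, τ_smul hc, hl₀, hk₁.1, hk₂.1, ea₁, ea₂]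
  have hAl : A l = 1 := by
    rw [hl, map_add, map_add, map_smul, map_smul, show A k₁ = 0 from hk₁.2, show A k₂ = 0 from hk₂.2,
      hA l₀, hA₀, smul_zero, smul_zero, add_zero, add_zero]
  have hβ' : a₁ + a₂ * θ = β := by
    rw [ha₁, ha₂]; field_simp; ring
  have hBl : Bm l = t := by
    rw [hl, map_add, map_add, map_smul, map_smul, hk₁', hk₂', smul_eq_mul, smul_eq_mul, mul_one,
      add_assoc, hβ', hβ, hb₀]
    ring
  have hEl : E l = e₀ + ρ * β + σ ρ * σ β := by
    have hρ1 : ρ + σ ρ = E k₁ := by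
      rw [hρ, map_div₀, map_sub, map_sub, map_mul, hc.inv, hEr k₁ hk₁.1, hEr k₂ hk₂.1,
        ← neg_sub θ (σ θ)]
      field_simp
      ring
    have hρ2 : ρ * θ + σ ρ * σ θ = E k₂ := by
      rw [hρ, map_div₀, map_sub, map_sub, map_mul, hc.inv, hEr k₁ hk₁.1, hEr k₂ hk₂.1,
        ← neg_sub θ (σ θ)]
      field_simp
      ring
    rw [hl, map_add, map_add, map_smul, map_smul, smul_eq_mul, smul_eq_mul, ← he₀, ← hρ1, ← hρ2, ← hβ',
      map_add, map_mul, ea₁, ea₂]
    ring
  have hfin := (hdeg l hlr (by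
    rw [hAl, hEl, hBl, hβ, ht]
    simp only [map_sub, map_add, hc.inv]
    linear_combination -hm)).1
  rw [hAl] at hfin
  exact one_ne_zero hfin

/-- The coefficients are one-dimensional. -/
theorem finrank_coeff (hr : (finrank F L).Prime) (h35 : finrank F L = 3 ∨ finrank F L = 5)
    {C G : Submodule F L} (hC1 : (1 : L) ∈ C) (hG : G ≠ ⊥)
    (hCG : ∀ c ∈ C, ∀ g ∈ G, Tr (c * τ g) = 0)
    (hdim : finrank F C + finrank F G = finrank F L)
    (hst : ∀ l g, τ l = l → g ∈ G → g ≠ 0 → l * g ∈ C → ∀ g' ∈ G, l * g' ∈ C) :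
    finrank F G = 1 := by
  haveI : Finite F := Finite.of_injective _ (algebraMap F L).injective
  have hk0 : 1 ≤ finrank F G := by
    rw [Nat.one_le_iff_ne_zero, Ne, Submodule.finrank_eq_zero]; exact hG
  have h2k : 2 * finrank F G ≤ finrank F L := by
    by_contra! hlt
    obtain ⟨g, hgG, hgr, hg0⟩ : ∃ g ∈ G, τ g = g ∧ g ≠ 0 := by
      by_contra! h
      have hinj : Function.Injective fun x : G × fixd τ => (x.1 : L) + (x.2 : L) := by
        rintro ⟨g, a⟩ ⟨g', a'⟩ he
        simp only at he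
        have h1 := h ((g : L) - g') (G.sub_mem g.2 g'.2) (by
          rw [show (g : L) - g' = (a' : L) - a by linear_combination he, map_sub, a'.2, a.2])
        have hgg : (g : L) = g' := sub_eq_zero.1 h1
        rw [hgg] at he
        exact Prod.ext (Subtype.ext hgg) (Subtype.ext (add_left_cancel he))
      have h1 := Nat.card_le_card_of_injective _ hinj
      rw [Nat.card_prod, card_submodule hc, ← card_fixd_sq hc, card_fixd hc, ← pow_add, ← pow_add,
        Nat.pow_le_pow_iff_right (two_le_card_base hc)] at h1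
      omega
    have hall := hst g⁻¹ g (by rw [map_inv₀, hgr]) hgG hg0 (by rwa [inv_mul_cancel₀ hg0])
    have h1 : finrank F G ≤ finrank F C := by
      rw [(Submodule.equivMapOfInjective (LinearMap.mulLeft F g⁻¹)
        (mul_right_injective₀ (inv_ne_zero hg0)) G).finrank_eq]
      exact Submodule.finrank_mono (by rintro _ ⟨y, hy, rfl⟩; exact hall y hy)
    omega
  rcases h35 with h3 | h5
  · omega
  · by_contra hne
    exact finrank_two_ne hc h5 hr hCG (by omega) (by omega) hst

end CfsgLib.C3Unit91
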