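import Cfsg.Agent.C3Unit91.Basic

/-!
Hermitian spaces over an extension field, isometries in a group of linear maps over the ground field, and
semilinearity from the action on isotropic lines.
-/

set_option autoImplicit false
set_option linter.unusedSectionVars false
set_option linter.style.haveILetI false

namespace CfsgLib.C3Unit91

open Module CfsgLib.C3Max CfsgLib.FieldExtMax

variable {F L V : Type*} [Field F] [Field L] [Algebra F L] [AddCommGroup V] [Module F V]
  [Module L V] [IsScalarTower F L V] [Finite L] [FiniteDimensional F L] [IsGalois F L]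
  [FiniteDimensional F V] [FiniteDimensional L V]

local notation "Tr" => Algebra.trace F L

/-- The hypotheses on the overgroup. -/
structure Over (σ : F ≃+* F) (τ : L ≃+* L) (B : V → V → L) (M : Subgroup (V ≃ₗ[F] V)) : Prop
    extends Conj σ τ where
  add_left : ∀ x y z, B (x + y) z = B x z + B y z
  smul_left : ∀ (c : L) x y, B (c • x) y = c * B x y
  herm : ∀ x y, B y x = τ (B x y)
  nondeg : ∀ v, v ≠ 0 → ∃ w, B v w ≠ 0
  pres : ∀ g ∈ M, ∀ x y, Tr (B (g x) (g y)) = Tr (B x y)
  lin : ∀ e : V ≃ₗ[L] V, (∀ x y, B (e x) (e y) = B x y) →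
    Algebra.norm F (LinearMap.det (e : V →ₗ[L] V)) = 1 → e.restrictScalars F ∈ M

variable {σ : F ≃+* F} {τ : L ≃+* L} {B : V → V → L} {M : Subgroup (V ≃ₗ[F] V)} (hB : Over σ τ B M)
include hB

lemma conj : Conj σ τ := hB.toConj

lemma add_right (x y z : V) : B x (y + z) = B x y + B x z := by
  rw [hB.herm (y + z), hB.add_left, map_add, ← hB.herm, ← hB.herm]

lemma smul_right (c : L) (x y : V) : B x (c • y) = τ c * B x y := by
  rw [hB.herm (c • y), hB.smul_left, map_mul, ← hB.herm]

lemma zero_left (y : V) : B 0 y = 0 := by simpa using hB.smul_left 0 0 y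

lemma zero_right (x : V) : B x 0 = 0 := by rw [hB.herm 0 x, zero_left hB, map_zero]

lemma neg_left (x y : V) : B (-x) y = -B x y := by
  rw [← neg_one_smul L, hB.smul_left, neg_one_mul]

lemma neg_right (x y : V) : B x (-y) = -B x y := by
  rw [← neg_one_smul L, smul_right hB, map_neg, map_one, neg_one_mul]

lemma sub_left (x y z : V) : B (x - y) z = B x z - B y z := by
  rw [sub_eq_add_neg, hB.add_left, neg_left hB, ← sub_eq_add_neg]

lemma sub_right (x y z : V) : B x (y - z) = B x y - B x z := by
  rw [sub_eq_add_neg, add_right hB, neg_right hB, ← sub_eq_add_neg]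

lemma orth_comm {x y : V} (h : B x y = 0) : B y x = 0 := by rw [hB.herm, h, map_zero]

lemma self_fixed (x : V) : τ (B x x) = B x x := (hB.herm x x).symm

lemma norm_add_smul (x y : V) (t : L) :
    B (x + t • y) (x + t • y) = B x x + τ t * B x y + t * B y x + t * τ t * B y y := by
  rw [hB.add_left, add_right hB, add_right hB, hB.smul_left, hB.smul_left, smul_right hB, smul_right hB]
  ring

/-- The functional `y ↦ B y a`. -/
def bFun (hB : Over σ τ B M) (a : V) : Dual L V where
  toFun y := B y a
  map_add' x y := hB.add_left x y a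
  map_smul' c x := hB.smul_left c x a

@[simp] lemma bFun_apply (a y : V) : bFun hB a y = B y a := rfl

lemma exists_skew' : ∃ ε : L, ε ≠ 0 ∧ ε + τ ε = 0 ∧ ∃ e : F, ε = algebraMap F L e := by
  obtain ⟨e, he, he'⟩ := exists_skew (conj hB)
  exact ⟨algebraMap F L e, by simpa using he, by rw [hB.base, ← map_add, he', map_zero], e, rfl⟩

lemma exists_trace_sum {r : L} (hr : τ r = r) : ∃ t : L, t + τ t = r := by
  obtain ⟨a, ha⟩ := exists_tr_one (conj hB)
  exact ⟨r * algebraMap F L a, by rw [map_mul, hr, hB.base, ← mul_add, ← map_add, ha, map_one, mul_one]⟩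

lemma exists_norm_real {r : L} (hr : τ r = r) : ∃ l : L, l * τ l = r := by
  obtain ⟨a, ha⟩ := CfsgLib.LinAlg.Witt.exists_norm_eq (τ : L →+* L)
    (fun h => by
      obtain ⟨θ, hθ⟩ := hB.ne
      have h1 : τ (algebraMap F L θ) = algebraMap F L θ := RingHom.congr_fun h _
      rw [hB.base] at h1
      exact hθ ((algebraMap F L).injective h1)) hB.invol hr
  exact ⟨a, by rw [mul_comm]; exact ha⟩

lemma exists_pair {v : V} (hv : v ≠ 0) : ∃ z, B z v = 1 := by
  obtain ⟨z, hz⟩ := hB.nondeg v hv
  have hz' : B z v ≠ 0 := fun h => hz (orth_comm hB h)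
  exact ⟨(B z v)⁻¹ • z, by rw [hB.smul_left, inv_mul_cancel₀ hz']⟩

/-- An isotropic translate along an isotropic vector. -/
lemma exists_shift {v z : V} (hv : B v v = 0) (h : B z v ≠ 0) :
    ∃ t : L, B (z + t • v) (z + t • v) = 0 := by
  obtain ⟨a, ha⟩ := exists_trace_sum hB (r := -B z z) (by rw [map_neg, self_fixed hB])
  have h' : B v z ≠ 0 := fun e => h (orth_comm hB e)
  refine ⟨a / B v z, ?_⟩
  have h2 : a / B v z * B v z = a := div_mul_cancel₀ _ h'
  have h3 : τ (a / B v z) * B z v = τ a := by rw [hB.herm v z, ← map_mul, h2]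
  rw [norm_add_smul hB, hv, mul_zero, add_zero, h3, h2]
  linear_combination ha

lemma exists_partner {v : V} (hv0 : v ≠ 0) (hv : B v v = 0) : ∃ e, B e e = 0 ∧ B e v = 1 ∧ B v e = 1 := by
  obtain ⟨z, hz⟩ := exists_pair hB hv0
  obtain ⟨t, ht⟩ := exists_shift hB hv (z := z) (by rw [hz]; exact one_ne_zero)
  have h1 : B (z + t • v) v = 1 := by rw [hB.add_left, hB.smul_left, hv, mul_zero, add_zero, hz]
  exact ⟨_, ht, h1, by rw [hB.herm, h1, map_one]⟩

/-- A subspace on which the form is non-degenerate. -/
def Good (B : V → V → L) (W : Submodule L V) : Prop :=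
  ∀ x ∈ W, x ≠ 0 → ∃ y ∈ W, B x y ≠ 0

lemma good_top : Good B (⊤ : Submodule L V) := fun x _ hx =>
  let ⟨w, hw⟩ := hB.nondeg x hx
  ⟨w, Submodule.mem_top, hw⟩

lemma exists_isotropic {W : Submodule L V} (hW : Good B W) (h : 2 ≤ finrank L W) :
    ∃ a ∈ W, a ≠ 0 ∧ B a a = 0 := by
  obtain ⟨x, hx, hx0⟩ := Submodule.exists_mem_ne_zero_of_ne_bot (p := W) fun h0 => by
    rw [h0, finrank_bot] at h; omega
  obtain ⟨y, hy, hy1⟩ : ∃ y ∈ W, B y y ≠ 0 := by
    by_contra! hall
    obtain ⟨w, hw, hxw⟩ := hW x hx hx0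
    have hxw' : B w x ≠ 0 := fun e => hxw (orth_comm hB e)
    obtain ⟨t, ht⟩ := exists_trace_sum hB (r := 1) (map_one τ)
    have h1 := hall (x + (t / B w x) • w) (W.add_mem hx (W.smul_mem _ hw))
    rw [norm_add_smul hB, hall x hx, hall w hw, mul_zero, add_zero, zero_add, div_mul_cancel₀ _ hxw',
      hB.herm w x, ← map_mul, div_mul_cancel₀ _ hxw', add_comm, ht] at h1
    exact one_ne_zero h1
  obtain ⟨z, hz, hz0⟩ : ∃ z ∈ W ⊓ LinearMap.ker (bFun hB y), z ≠ 0 := by
    refine Submodule.exists_mem_ne_zero_of_ne_bot fun h0 => ?_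
    have h1 := Submodule.finrank_sup_add_finrank_inf_eq W (LinearMap.ker (bFun hB y))
    have h2 := LinearMap.finrank_range_add_finrank_ker (bFun hB y)
    have h3 := Submodule.finrank_le (LinearMap.range (bFun hB y))
    have h4 := Submodule.finrank_le (W ⊔ LinearMap.ker (bFun hB y))
    rw [h0, finrank_bot] at h1
    rw [finrank_self] at h3
    omega
  by_cases hzz : B z z = 0
  · exact ⟨z, hz.1, hz0, hzz⟩
  obtain ⟨l, hl⟩ := exists_norm_real hB (r := -(B y y / B z z)) (by
    rw [map_neg, map_div₀, self_fixed hB, self_fixed hB])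
  have hzy : B z y = 0 := hz.2
  refine ⟨y + l • z, W.add_mem hy (W.smul_mem l hz.1), fun h0 => hy1 ?_, ?_⟩
  · have := congrArg (fun w => B w y) h0
    simpa only [hB.add_left, hB.smul_left, hzy, mul_zero, add_zero, zero_left hB] using this
  · rw [norm_add_smul hB, hzy, orth_comm hB hzy, hl]
    field_simp
    ring

/-- A non-zero vector of a non-degenerate subspace with an isotropic vector is not orthogonal to all of them. -/
lemma exists_iso_sep {W : Submodule L V} (hW : Good B W) (h : 2 ≤ finrank L W) {u : V} (hu : u ∈ W)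
    (hu0 : u ≠ 0) : ∃ w ∈ W, B w w = 0 ∧ B u w ≠ 0 := by
  obtain ⟨a, ha, ha0, haa⟩ := exists_isotropic hB hW h
  by_cases huu : B u u = 0
  · obtain ⟨z, hz, huz⟩ := hW u hu hu0
    obtain ⟨t, ht⟩ := exists_shift hB huu (z := z) fun e => huz (orth_comm hB e)
    exact ⟨z + t • u, W.add_mem hz (W.smul_mem t hu), ht, by
      rw [add_right hB, smul_right hB, huu, mul_zero, add_zero]; exact huz⟩
  by_cases hua : B u a ≠ 0
  · exact ⟨a, ha, haa, hua⟩
  push Not at hua
  obtain ⟨z, hz, haz⟩ := hW a ha ha0
  obtain ⟨t, ht⟩ := exists_shift hB haa (z := z) fun e => haz (orth_comm hB e)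
  set b := z + t • a
  have hb : b ∈ W := W.add_mem hz (W.smul_mem t ha)
  have hba : B b a ≠ 0 := by
    simp only [b, hB.add_left, hB.smul_left, haa, mul_zero, add_zero]
    exact fun e => haz (orth_comm hB e)
  by_cases hub : B u b ≠ 0
  · exact ⟨b, hb, ht, hub⟩
  push Not at hub
  obtain ⟨s, hs⟩ := exists_trace_sum hB (r := -B u u) (by rw [map_neg, self_fixed hB])
  refine ⟨u + (a + (s / B b a) • b), W.add_mem hu (W.add_mem ha (W.smul_mem _ hb)), ?_, ?_⟩
  · set w := a + (s / B b a) • b with hw'
    have h1 : B u w = 0 := by rw [hw', add_right hB, smul_right hB, hua, hub, mul_zero, add_zero]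
    have h2 : B w w = s + τ s := by
      rw [hw', norm_add_smul hB, haa, ht, div_mul_cancel₀ _ hba, hB.herm b a, ← map_mul,
        div_mul_cancel₀ _ hba]
      ring
    rw [hB.add_left, add_right hB u u w, add_right hB w u w, h1, orth_comm hB h1, h2]
    linear_combination hs
  · rw [add_right hB, add_right hB, smul_right hB, hua, hub, mul_zero, add_zero, add_zero]
    exact huu

/-- A vector orthogonal to `v` separating `u` from the line of `v`. -/
lemma exists_sep {v u : V} (hv : v ≠ 0) (hu : u ∉ lineF L v (F := F)) :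
    ∃ b, B b v = 0 ∧ B u b = 1 := by
  obtain ⟨z, hz⟩ := exists_pair hB hv
  have hvz : B v z = 1 := by rw [hB.herm, hz, map_one]
  obtain ⟨w, hw⟩ := hB.nondeg (u - B u z • v) fun h =>
    hu (mem_lineF.2 ⟨B u z, (sub_eq_zero.1 h).symm⟩)
  set b := w - B w v • z with hb
  have hbv : B b v = 0 := by rw [hb, sub_left hB, hB.smul_left, hz, mul_one, sub_self]
  have hub : B u b = B (u - B u z • v) w := by
    rw [hb, sub_right hB, smul_right hB, sub_left hB, hB.smul_left, ← hB.herm w v]
    ring
  have hne : B b u ≠ 0 := fun e => hw (by rw [← hub]; exact orth_comm hB e)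
  exact ⟨(B b u)⁻¹ • b, by rw [hB.smul_left, hbv, mul_zero], by
    rw [smul_right hB, map_inv₀, hB.herm b u, inv_mul_cancel₀ (by simpa using hne)]⟩

/-- Unitary transvections lie in the group. -/
lemma exists_transv {w : V} (hw : B w w = 0) {c : L} (hc : c + τ c = 0) :
    ∃ g ∈ M, ∀ y, g y = y + (c * B y w) • w := by
  have hu : (c • bFun hB w) w = 0 := by simp [hw]
  set e := LinearEquiv.transvection hu with he
  have hey : ∀ y, e y = y + (c * B y w) • w := fun y => by
    simp [e, LinearMap.transvection.apply]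
  refine ⟨e.restrictScalars F, hB.lin e (fun x y => ?_) ?_, fun y => hey y⟩
  · rw [hey, hey, hB.add_left, add_right hB, add_right hB, hB.smul_left, hB.smul_left, smul_right hB,
      smul_right hB, hw, map_mul, ← hB.herm y w]
    linear_combination (B x w * B w y) * hc
  · rw [he, LinearEquiv.transvection.coe_toLinearMap, LinearMap.transvection.det, hu, add_zero, map_one]

omit hB in
/-- The quasi-reflection along an anisotropic vector. -/
noncomputable def dil (hB : Over σ τ B M) {z : V} (hz : B z z ≠ 0) {c : L} (hc : c ≠ 0) : V ≃ₗ[L] V :=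
  LinearEquiv.dilatransvection (f := ((c - 1) / B z z) • bFun hB z) (v := z)
    (by simp [hz, hc])

omit hB in
lemma dil_apply (hB : Over σ τ B M) {z : V} (hz : B z z ≠ 0) {c : L} (hc : c ≠ 0) (y : V) :
    dil hB hz hc y = y + ((c - 1) / B z z * B y z) • z := by
  rw [dil, LinearEquiv.dilatransvection.apply]
  simp

lemma dil_det {z : V} (hz : B z z ≠ 0) {c : L} (hc : c ≠ 0) :
    LinearMap.det (dil hB hz hc : V →ₗ[L] V) = c := by
  rw [dil, LinearEquiv.dilatransvection.coe_toLinearMap, LinearMap.transvection.det, LinearMap.smul_apply,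
    smul_eq_mul, bFun_apply, div_mul_cancel₀ _ hz, add_sub_cancel]

lemma dil_iso {z : V} (hz : B z z ≠ 0) {c : L} (hc : c ≠ 0) (hn : c * τ c = 1) (x y : V) :
    B (dil hB hz hc x) (dil hB hz hc y) = B x y := by
  rw [dil_apply, dil_apply, hB.add_left, add_right hB, add_right hB, hB.smul_left, hB.smul_left,
    smul_right hB, smul_right hB, map_mul, map_div₀, map_sub, map_one, self_fixed hB, ← hB.herm y z]
  field_simp
  linear_combination (B x z * B z y) * hn

/-- A map carrying isotropic lines into lines is semilinear. -/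
theorem semiLin_of_iso [Finite V] (hm : 2 ≤ finrank L V) {g : V ≃ₗ[F] V}
    (hg : ∀ x, B x x = 0 → ∀ l : L, g (l • x) ∈ lineF L (g x) (F := F)) : g ∈ semiLin F L V := by
  obtain ⟨a, -, ha0, haa⟩ := exists_isotropic hB (good_top hB) (by rwa [finrank_top])
  obtain ⟨θ, hθ⟩ := hB.ne
  obtain ⟨e, he0, he1⟩ := exists_skew (conj hB)
  -- a hyperbolic pair has one multiplicative twist
  have key : ∀ {a b : V}, a ≠ 0 → B a a = 0 → B b b = 0 → B a b = 1 →
      ∃ f : L → L, (∀ l l', f (l * l') = f l * f l') ∧
        (∀ l, g (l • a) = f l • g a) ∧ ∀ l, g (l • b) = f l • g b := by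
    intro a b ha haa hbb hab
    have hb : b ≠ 0 := fun h => by rw [h, zero_right hB] at hab; exact zero_ne_one hab
    choose f hf using fun l => mem_lineF.1 (hg a haa l)
    choose f' hf' using fun l => mem_lineF.1 (hg b hbb l)
    have hga : g a ≠ 0 := by simpa using ha
    have hind : ∀ p q : L, p • g a + q • g b = 0 → p = 0 ∧ q = 0 := by
      intro p q hpq
      have hinj : Function.Injective f := fun l l' h => smul_left_injective L ha
        (g.injective (by rw [← hf, ← hf, h]))
      have hq : q = 0 := by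
        by_contra hq
        obtain ⟨l, hl⟩ := Finite.injective_iff_surjective.1 hinj (-(q⁻¹ * p))
        have hbl : b = l • a := g.injective (by
          rw [← hf, hl, ← inv_smul_smul₀ hq (g b), eq_neg_of_add_eq_zero_right hpq, smul_neg, smul_smul,
            neg_smul])
        rw [hbl, smul_right hB, haa, mul_zero] at hab
        exact zero_ne_one hab
      rw [hq, zero_smul, add_zero] at hpq
      exact ⟨(smul_eq_zero.1 hpq).resolve_right hga, hq⟩
    have hf1 : f 1 = 1 := smul_left_injective L hga (by simp only; rw [hf, one_smul, one_smul])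
    have hgb : g b ≠ 0 := by simpa using hb
    have hf'1 : f' 1 = 1 := smul_left_injective L hgb (by simp only; rw [hf', one_smul, one_smul])
    have hadd : ∀ l l', f (l + l') = f l + f l' := fun l l' => smul_left_injective L hga (by
      simp only; rw [add_smul, hf, hf, hf, add_smul, map_add])
    have hlin : ∀ (c : F) l, f (c • l) = c • f l := fun c l => smul_left_injective L hga (by
      simp only; rw [smul_assoc, hf, hf, smul_assoc, map_smul])
    have hlin' : ∀ (c : F) l, f' (c • l) = c • f' l := fun c l => smul_left_injective L hgb (by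
      simp only; rw [smul_assoc, hf', hf', smul_assoc, map_smul])
    have hrel : ∀ d : L, d + τ d = 0 → ∀ l, f' (l * d) = f l * f' d := by
      intro d hd l
      have hiso : B (a + d • b) (a + d • b) = 0 := by
        rw [norm_add_smul hB, haa, hab, hB.herm a b, hab, map_one, hbb]
        linear_combination hd
      obtain ⟨k, hk⟩ := mem_lineF.1 (hg _ hiso l)
      have h1 : g (l • (a + d • b)) = f l • g a + f' (l * d) • g b := by
        rw [smul_add, smul_smul, map_add, hf, hf']
      have h2 : k • g (a + d • b) = k • g a + (k * f' d) • g b := by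
        rw [map_add, smul_add, ← hf' d, smul_smul]
      rw [h1, h2] at hk
      obtain ⟨h3, h4⟩ := hind (k - f l) (k * f' d - f' (l * d)) (by
        simp only [sub_smul]; linear_combination (norm := module) hk)
      rw [← sub_eq_zero.1 h4, sub_eq_zero.1 h3]
    have hd0 : algebraMap F L e + τ (algebraMap F L e) = 0 := by rw [hB.base, ← map_add, he1, map_zero]
    have hff : ∀ l, f' l = f l := fun l => by
      have h := hrel _ hd0 l
      rw [show l * algebraMap F L e = e • l by rw [Algebra.smul_def, mul_comm], hlin',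
        Algebra.algebraMap_eq_smul_one, hlin', hf'1, mul_smul_comm, mul_one] at h
      exact smul_right_injective L he0 h
    have hreal : ∀ μ, τ μ = μ → ∀ l, f (l * μ) = f l * f μ := by
      intro μ hμ l
      have h := hrel (e • μ) (by rw [τ_smul (conj hB), hμ, ← add_smul, he1, zero_smul]) l
      rw [mul_smul_comm, hlin', hlin', hff, hff, mul_smul_comm] at h
      exact smul_right_injective L he0 h
    refine ⟨f, fun l l' => ?_, fun l => (hf l).symm, fun l => by rw [← hff, hf']⟩
    obtain ⟨μ₁, μ₂, h1, h2, rfl⟩ := exists_decomp (conj hB) hθ l'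
    rw [mul_add, hadd, hadd, mul_smul_comm, hlin, hlin, hreal μ₁ h1, hreal μ₂ h2, mul_add, mul_smul_comm]
  obtain ⟨b, hbb, hba, hab⟩ := exists_partner hB ha0 haa
  obtain ⟨f, hfm, hfa, hfb⟩ := key ha0 haa hbb hab
  have hb0 : b ≠ 0 := fun h => by rw [h, zero_left hB] at hba; exact zero_ne_one hba
  have hsame : ∀ {x : V}, x ≠ 0 → B x x = 0 → (∀ l, g (l • x) = f l • g x) →
      ∀ {y : V}, B y y = 0 → B x y ≠ 0 → ∀ l, g (l • y) = f l • g y := by
    intro x hx hxx hfx y hyy hxy l
    set y' := (τ (B x y))⁻¹ • y with hy'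
    have hy'' : y = τ (B x y) • y' := by rw [hy', smul_inv_smul₀ (by simpa using hxy)]
    obtain ⟨f₁, hm1, h1x, h1y⟩ := key hx hxx (b := y')
      (by rw [hy', hB.smul_left, smul_right hB, hyy, mul_zero, mul_zero])
      (by rw [hy', smul_right hB, map_inv₀, hB.invol, inv_mul_cancel₀ hxy])
    have hfe : ∀ l, f₁ l = f l := fun l => smul_left_injective L (by simpa using hx : g x ≠ 0)
      (by simp only; rw [← h1x, hfx])
    rw [hy'', smul_smul, h1y, hfe, hfm, mul_smul, ← hfe, ← hfe, ← h1y, hfe]
  have hall : ∀ y, B y y = 0 → ∀ l, g (l • y) = f l • g y := by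
    intro y hyy l
    by_cases h1 : B a y ≠ 0
    · exact hsame ha0 haa hfa hyy h1 l
    by_cases h2 : B b y ≠ 0
    · exact hsame hb0 hbb hfb hyy h2 l
    push Not at h1 h2
    have h := hsame hb0 hbb hfb (y := a + y)
      (by rw [hB.add_left, add_right hB, add_right hB, haa, h1, orth_comm hB h1, hyy]; simp)
      (by rw [add_right hB, hba, h2, add_zero]; exact one_ne_zero) l
    rw [smul_add, map_add, hfa, map_add, smul_add] at h
    exact add_left_cancel h
  intro l
  refine ⟨f l, fun y => ?_⟩
  have hnon : ∀ y, B y a ≠ 0 → g (l • y) = f l • g y := by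
    intro y hy
    obtain ⟨t, ht⟩ := exists_shift hB haa hy
    have h1 := hall _ ht l
    rw [smul_add, map_add, map_add, smul_add, smul_smul, hfa, hfm, mul_smul, ← hfa t] at h1
    exact add_right_cancel h1
  by_cases hy : B y a ≠ 0
  · exact hnon y hy
  push Not at hy
  have h1 := hnon (y + b) (by rw [hB.add_left, hy, hba, zero_add]; exact one_ne_zero)
  rw [smul_add, map_add, hfb, map_add, smul_add] at h1
  exact add_right_cancel h1

end CfsgLib.C3Unit91
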