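import Cfsg.Agent.C3Unit91.Herm
import Mathlib.FieldTheory.ChevalleyWarning
import Mathlib.Algebra.Module.ZMod

/-!
A totally isotropic subspace for the form over the ground field of the dimension of the extension contains
an isotropic vector for the form over the extension.
-/

set_option autoImplicit false
set_option linter.unusedSectionVars false
set_option linter.style.haveILetI false

namespace CfsgLib.C3Unit91

open Module MvPolynomial

variable {F L V : Type*} [Field F] [Field L] [Algebra F L] [AddCommGroup V] [Module F V]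
  [Module L V] [IsScalarTower F L V] [Finite L] [FiniteDimensional F L] [IsGalois F L]
  [FiniteDimensional F V] [FiniteDimensional L V]

local notation "Tr" => Algebra.trace F L

variable {σ : F ≃+* F} {τ : L ≃+* L} {B : V → V → L} {M : Subgroup (V ≃ₗ[F] V)} (hB : Over σ τ B M)
include hB

lemma exists_iso_mem [Finite V] {S : Submodule F V} (hS : finrank F S = finrank F L)
    (hiso : ∀ y ∈ S, ∀ z ∈ S, Tr (B y z) = 0) : ∃ y ∈ S, y ≠ 0 ∧ B y y = 0 := by
  classical
  haveI : Finite F := Finite.of_injective _ (algebraMap F L).injective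
  set Q := Nat.card (fixd σ) with hQ
  have hQ2 : 2 ≤ Q := two_le_card_base (conj hB)
  obtain ⟨p, hchar⟩ := CharP.exists L
  haveI := hchar
  haveI : Fact p.Prime := ⟨(CharP.char_is_prime_or_zero L p).resolve_right fun h => by
    subst h
    haveI := CharP.charP_to_charZero L
    exact not_finite L⟩
  letI : Algebra (ZMod p) L := ZMod.algebra L p
  have hpV : ∀ x : V, p • x = 0 := fun x => by
    rw [← Nat.cast_smul_eq_nsmul F]
    have h1 : algebraMap F L (p : F) = 0 := by rw [map_natCast, CharP.cast_eq_zero]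
    rw [(map_eq_zero (algebraMap F L)).1 h1, zero_smul]
  obtain ⟨modV⟩ : Nonempty (Module (ZMod p) V) := ⟨AddCommGroup.zmodModule hpV⟩
  let S₀ : Submodule (ZMod p) V := 
    { carrier := S
      zero_mem' := S.zero_mem
      add_mem' := fun ha hb => S.add_mem ha hb
      smul_mem' := fun c x hx => ZMod.smul_mem (K := S) hx c }
  have hcS : Nat.card S₀ = Nat.card S := rfl
  let R₀ : AddSubgroup L :=
    { carrier := {l | τ l = l ∧ Tr l = 0}
      zero_mem' := ⟨map_zero τ, map_zero _⟩
      add_mem' := fun {a b} ha hb => ⟨by rw [map_add, ha.1, hb.1], by rw [map_add, ha.2, hb.2, add_zero]⟩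
      neg_mem' := fun {a} ha => ⟨by rw [map_neg, ha.1], by rw [map_neg, ha.2, neg_zero]⟩ }
  let W : Submodule (ZMod p) L := AddSubgroup.toZModSubmodule p R₀
  obtain ⟨π, hπ⟩ := LinearMap.exists_leftInverse_of_injective W.subtype (Submodule.ker_subtype W)
  have hπ' : ∀ l : W, π l = l := fun l => LinearMap.congr_fun hπ l
  let b := Module.finBasis (ZMod p) S₀
  let c := Module.finBasis (ZMod p) W
  let ψ : Fin (finrank (ZMod p) W) → L →+ ZMod p := fun k => (c.coord k).toAddMonoidHom.comp π.toAddMonoidHom
  let hl : Fin (finrank (ZMod p) W) → S₀ → (S₀ →+ ZMod p) := fun k z =>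
    AddMonoidHom.mk' (fun y : S₀ => ψ k (B (y : V) (z : V))) fun y y' => by
      rw [Submodule.coe_add, hB.add_left, map_add]
  let hr : Fin (finrank (ZMod p) W) → S₀ → (S₀ →+ ZMod p) := fun k y =>
    AddMonoidHom.mk' (fun z : S₀ => ψ k (B (y : V) (z : V))) fun z z' => by
      rw [Submodule.coe_add, add_right hB, map_add]
  let β : Fin (finrank (ZMod p) W) → (S₀ →ₗ[ZMod p] S₀ →ₗ[ZMod p] ZMod p) := fun k =>
    LinearMap.mk₂ (ZMod p) (fun y z => hr k y z) (fun y y' z => map_add (hl k z) y y')
      (fun r y z => ZMod.map_smul (hl k z) r y) (fun y z z' => map_add (hr k y) z z')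
      (fun r y z => ZMod.map_smul (hr k y) r z)
  let f : Fin (finrank (ZMod p) W) → MvPolynomial (Fin (finrank (ZMod p) S₀)) (ZMod p) := fun k =>
    ∑ i, ∑ j, C (β k (b i) (b j)) * X i * X j
  have hdeg : ∀ k, (f k).totalDegree ≤ 2 := fun k => by
    refine totalDegree_finsetSum_le fun i _ => totalDegree_finsetSum_le fun j _ => ?_
    refine (totalDegree_mul _ _).trans ?_
    refine (Nat.add_le_add (totalDegree_mul _ _) le_rfl).trans ?_
    rw [totalDegree_C, totalDegree_X, totalDegree_X]
  have hcount : 2 * finrank (ZMod p) W < finrank (ZMod p) S₀ := by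
    have h1 : p ^ finrank (ZMod p) S₀ = Q ^ (2 * finrank F L) := by
      have e := Module.natCard_eq_pow_finrank (K := ZMod p) (V := S₀)
      rw [Nat.card_zmod] at e
      rw [← e, hcS, Module.natCard_eq_pow_finrank (K := F) (V := S), hS, card_base (conj hB), ← pow_mul]
    have h2 : Q * p ^ finrank (ZMod p) W ≤ Q ^ finrank F L := by
      have e := Module.natCard_eq_pow_finrank (K := ZMod p) (V := W)
      rw [Nat.card_zmod] at e
      rw [← e, ← card_fixd (conj hB)]
      let A : fixd τ →+ fixd σ :=
        { toFun := fun l => ⟨Tr (l : L), by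
            show σ _ = _
            rw [← hB.tr, mem_fixd.1 l.2]⟩
          map_zero' := Subtype.ext (by simp)
          map_add' := fun a b => Subtype.ext (by simp) }
      have hsurj : Function.Surjective A := by
        rintro ⟨s, hs⟩
        obtain ⟨l, hl, hl'⟩ := exists_real_trace_eq (conj hB) one_ne_zero (map_one τ) (c := s) hs
        exact ⟨⟨l, hl⟩, Subtype.ext (by rw [mul_one] at hl'; exact hl')⟩
      have h1 := A.ker.card_eq_card_quotient_mul_card_addSubgroup
      rw [Nat.card_congr (QuotientAddGroup.quotientKerEquivOfSurjective A hsurj).toEquiv] at h1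
      rw [h1]
      refine Nat.mul_le_mul le_rfl (Nat.card_le_card_of_injective (fun l : W => (⟨⟨(l : L), l.2.1⟩,
        Subtype.ext l.2.2⟩ : A.ker)) fun a b h => Subtype.ext (congrArg Subtype.val (congrArg Subtype.val h) :))
    by_contra hle
    push Not at hle
    have h3 : p ^ finrank (ZMod p) S₀ ≤ p ^ (2 * finrank (ZMod p) W) :=
      Nat.pow_le_pow_right (Fact.out (p := p.Prime)).pos hle
    rw [h1, two_mul, two_mul, pow_add, pow_add] at h3
    have h4 : 1 ≤ p ^ finrank (ZMod p) W := Nat.one_le_pow _ _ (Fact.out (p := p.Prime)).pos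
    have h5 : Q ^ finrank F L ≤ p ^ finrank (ZMod p) W := Nat.mul_self_le_mul_self_iff.1 h3
    have h6 : 2 * p ^ finrank (ZMod p) W ≤ Q * p ^ finrank (ZMod p) W := Nat.mul_le_mul_right _ hQ2
    omega
  have hsum : (∑ k, (f k).totalDegree) < Fintype.card (Fin (finrank (ZMod p) S₀)) := by
    refine lt_of_le_of_lt (Finset.sum_le_sum fun k _ => hdeg k) ?_
    simp only [Finset.sum_const, Finset.card_univ, Fintype.card_fin, smul_eq_mul]
    omega
  have hdvd := char_dvd_card_solutions_of_fintype_sum_lt p hsum
  have hzero : ∀ k, eval (0 : Fin (finrank (ZMod p) S₀) → ZMod p) (f k) = 0 := fun k => by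
    simp [f]
  have h1lt : 1 < Fintype.card {x : Fin (finrank (ZMod p) S₀) → ZMod p // ∀ k, eval x (f k) = 0} := by
    haveI : Nonempty {x : Fin (finrank (ZMod p) S₀) → ZMod p // ∀ k, eval x (f k) = 0} := ⟨⟨0, hzero⟩⟩
    exact lt_of_lt_of_le (Fact.out (p := p.Prime)).one_lt (Nat.le_of_dvd Fintype.card_pos (by convert hdvd))
  obtain ⟨⟨x, hx⟩, hxne⟩ := Fintype.exists_ne_of_one_lt_card h1lt ⟨0, hzero⟩
  set y : S₀ := ∑ i, x i • b i with hy
  refine ⟨y, y.2, fun h0 => hxne (Subtype.ext ?_), ?_⟩
  · have h1 : y = 0 := Subtype.ext h0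
    exact funext fun i => Fintype.linearIndependent_iff.1 b.linearIndependent x (hy ▸ h1) i
  · have hmem : B (y : V) y ∈ W := ⟨self_fixed hB _, hiso _ y.2 _ y.2⟩
    have h0 : π (B (y : V) y) = 0 := by
      refine c.repr.injective (Finsupp.ext fun k => ?_)
      have h := hx k
      simp only [f, map_sum, map_mul, eval_C, eval_X] at h
      rw [map_zero, Finsupp.zero_apply]
      show β k y y = 0
      rw [hy]
      simp only [map_sum, map_smul, LinearMap.sum_apply, LinearMap.smul_apply, smul_eq_mul, Finset.mul_sum]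
      rw [← h, Finset.sum_comm]
      exact Finset.sum_congr rfl fun i _ => Finset.sum_congr rfl fun j _ => by ring
    rw [show π (B (y : V) y) = ⟨_, hmem⟩ from hπ' ⟨_, hmem⟩] at h0
    exact congrArg Subtype.val h0

end CfsgLib.C3Unit91
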