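import Cfsg.Agent.C3Unit91.Spread
import Cfsg.Agent.FieldExtMax.MatrixForm
import Cfsg.Agent.Classical.UnitCentresStd

/-!
The normaliser of an extension field of degree three or five closed under adjoints is maximal in the special
unitary group.
-/

set_option autoImplicit false
set_option linter.style.haveILetI false

namespace CfsgLib.C3Unit91

open Module Matrix CfsgLib.C3Max CfsgLib.FieldExtMax

theorem unitary_normalizer_maximal {F : Type*} [Field F] [Fintype F] {n q r : ℕ}
    (hF : Fintype.card F = q ^ 2) (hr : r.Prime) (h35 : r = 3 ∨ r = 5)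
    (hn : (n = 10 ∧ r = 5) ∨ (n = 6 ∧ r = 3 ∧ 3 ≤ q) ∨ 4 * r ≤ n)
    {K : Subalgebra F (Matrix (Fin n) (Fin n) F)} (hK : Cfsg.Geo.IsFieldSubalgebra r K)
    (hac : Cfsg.Geo.IsAdjointClosedFor (Cfsg.hermForm n F q) K) :
    Cfsg.Geo.IsMaximalIn (Cfsg.GU n F q ⊓ Cfsg.Geo.specialLinear (Fin n) F)
      (Cfsg.Geo.subalgebraNormalizer K ⊓ (Cfsg.GU n F q ⊓ Cfsg.Geo.specialLinear (Fin n) F)) := by
  classical
  have hn4 : 4 ≤ n := by rcases hn with ⟨rfl, -⟩ | ⟨rfl, -, -⟩ | h <;> omega
  haveI : Nonempty (Fin n) := ⟨⟨0, by omega⟩⟩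
  obtain ⟨σ, hσ, hf⟩ := CfsgLib.LinAlg.Witt.exists_isUnitaryForm_hermForm (n := n) hF
  set f := Cfsg.hermForm n F q with hfdef
  letI : Field K := fieldOf hK
  letI : Module K (Fin n → F) := moduleOf K
  haveI : IsScalarTower F K (Fin n → F) := ⟨fun c k y => smul_mulVec c (k : Matrix (Fin n) (Fin n) F) y⟩
  haveI : Finite K := inferInstance
  haveI : FiniteDimensional F K := Module.Finite.of_finite
  haveI : IsGalois F K := GaloisField.instIsGaloisOfFinite
  haveI : FiniteDimensional K (Fin n → F) := Module.Finite.of_finite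
  have hfr : finrank F K = r := hK.finrank_eq
  -- the adjoint
  choose adj hadjK hadj using fun k : K => hac k k.2
  let a : K → K := fun k => ⟨adj k, hadjK k⟩
  have ha : ∀ (k : K) u v, f (k • u) v = f u (a k • v) := hadj
  have huniq : ∀ k k' : K, (∀ u v : Fin n → F, f u (k • v) = f u (k' • v)) → k = k' := by
    intro k k' h
    refine Subtype.ext (Matrix.ext_of_mulVec_single fun i => ?_)
    by_contra hne
    obtain ⟨x, hx⟩ := (hf.nondegenerate _ (sub_ne_zero.2 hne)).1
    refine hx ?_
    rw [CfsgLib.UnitCentres.sub_right hf]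
    have := h x (Pi.single i 1)
    change f x ((k : Matrix (Fin n) (Fin n) F) *ᵥ Pi.single i 1) =
      f x ((k' : Matrix (Fin n) (Fin n) F) *ᵥ Pi.single i 1) at this
    rw [this, sub_self]
  have a_add : ∀ k l, a (k + l) = a k + a l := fun k l => huniq _ _ fun u v => by
    rw [← ha, add_smul, hf.add_left, ha, ha, ← CfsgLib.UnitCentres.add_right hf, ← add_smul]
  have a_mul : ∀ k l, a (k * l) = a k * a l := fun k l => huniq _ _ fun u v => by
    rw [← ha, mul_comm k l, mul_smul, ha, ha, ← mul_smul, mul_comm]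
  have a_inv : ∀ k, a (a k) = k := fun k => huniq _ _ fun u v => by
    rw [← ha, hf.herm, ← ha, ← hf.herm]
  have a_base : ∀ c : F, a (algebraMap F K c) = algebraMap F K (σ c) := fun c => huniq _ _ fun u v => by
    rw [← ha, algebraMap_smul, algebraMap_smul, hf.smul_left, CfsgLib.UnitCentres.smul_right hf,
      hf.involutive]
  let τ : K ≃+* K :=
    { toFun := a, invFun := a, left_inv := a_inv, right_inv := a_inv, map_mul' := a_mul, map_add' := a_add }
  have hτ : ∀ k, τ k = a k := fun k => rfl
  have htr : ∀ x, Algebra.trace F K (τ x) = σ (Algebra.trace F K x) := fun x => by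
    have h := Algebra.trace_eq_of_equiv_equiv σ τ (RingHom.ext fun c => (a_base c).symm) x
    rw [h, RingEquiv.apply_symm_apply]
  -- the form over the field
  let fl : (Fin n → F) → (Fin n → F) →ₗ[F] F := fun y => CfsgLib.UnitCentres.upair hf y
  choose φ hφ using fun y => traceDual_surjective (L := K) (fl y)
  have key : ∀ y x, Algebra.trace F K (φ y x) = f x y := fun y x => by
    rw [← traceDual_apply, hφ]; rfl
  let B : (Fin n → F) → (Fin n → F) → K := fun x y => φ y x
  have hB : ∀ x y, Algebra.trace F K (B x y) = f x y := fun x y => key y x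
  set MK := Cfsg.Geo.subalgebraNormalizer K
  have hsemi : ∀ g : GL (Fin n) F, glEquiv g ∈ semiLin F K (Fin n → F) ↔ g ∈ MK := by
    intro g
    rw [mem_normalizer_iff hK]
    constructor
    · intro h k hk
      obtain ⟨l, hl⟩ := h ⟨k, hk⟩
      exact ⟨l, l.2, fun y => hl y⟩
    · intro h l
      obtain ⟨k', hk', he⟩ := h l l.2
      exact ⟨⟨k', hk'⟩, fun y => he y⟩
  have hsl : ∀ (x : Fin n → F) (k : K), f (k • x) x = Algebra.trace F K (k * B x x) := fun x k => by
    rw [← hB]; exact congrArg _ (map_smul (φ x) k x)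
  have hherm : ∀ x y, B y x = τ (B x y) := fun x y => eq_of_trace (F := F) fun m => by
    rw [← smul_eq_mul, show m • B y x = B (m • y) x from (map_smul (φ x) m y).symm, hB,
      show m * τ (B x y) = τ (τ m * B x y) by rw [map_mul, hτ (τ m), hτ m, a_inv], htr, hτ,
      ← smul_eq_mul, show a m • B x y = B (a m • x) y from (map_smul (φ y) (a m) x).symm, hB,
      ← hf.herm, ha]
  have hnd : ∀ v, v ≠ 0 → ∃ w, B v w ≠ 0 := fun v hv => by
    obtain ⟨w, hw⟩ := (hf.nondegenerate v hv).1
    by_contra! h
    first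
      | exact hw (by rw [← hB, h w, map_zero])
      | exact hw (CfsgLib.UnitCentres.orth_comm hf (by rw [← hB, h w, map_zero]))
  have hover : ∀ M : Subgroup (GL (Fin n) F), MK ⊓ (Cfsg.GU n F q ⊓ Cfsg.Geo.specialLinear (Fin n) F) ≤ M →
      M ≤ Cfsg.GU n F q ⊓ Cfsg.Geo.specialLinear (Fin n) F →
      Over σ τ B (M.map (glEquiv (ι := Fin n) (F := F)).toMonoidHom) := by
    intro M hle hMS
    refine
      { inv := hf.involutive
        ne := ?_
        invol := a_inv
        base := a_base
        tr := htr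
        add_left := fun x y z => map_add (φ z) x y
        smul_left := fun c x y => map_smul (φ y) c x
        herm := hherm
        nondeg := hnd
        pres := ?_
        lin := ?_ }
    · by_contra! h
      exact hf.ne_refl (RingEquiv.ext h)
    · rintro _ ⟨g, hg, rfl⟩ x y
      rw [hB, hB]
      exact (CfsgLib.UnitCentres.mem_special.1 (hMS hg)).1 x y
    · intro e he hdet
      obtain ⟨g, hg⟩ := (glEquiv (ι := Fin n) (F := F)).surjective (e.restrictScalars F)
      refine ⟨g, hle ⟨(hsemi g).1 (hg ▸ ?_), CfsgLib.UnitCentres.mem_special.2 ⟨fun x y => ?_, ?_⟩⟩, hg⟩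
      · intro l
        exact ⟨l, fun y => map_smul e l y⟩
      · rw [← glEquiv_apply, ← glEquiv_apply, hg, ← hfdef, ← hB, ← hB]
        exact congrArg _ (he x y)
      · rw [Cfsg.Geo.specialLinear, MonoidHom.mem_ker]
        refine Units.ext ?_
        change (g : Matrix (Fin n) (Fin n) F).det = 1
        rw [← LinearMap.det_toLin', show Matrix.toLin' (g : Matrix (Fin n) (Fin n) F)
          = ((e : (Fin n → F) →ₗ[K] (Fin n → F)).restrictScalars F) from LinearMap.ext fun y => by
            rw [Matrix.toLin'_apply, ← glEquiv_apply, hg]; rfl,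
          LinearMap.det_restrictScalars, hdet]
  have hO := hover _ inf_le_right le_rfl
  have hm : (finrank K (Fin n → F) = 2 ∧
      2 * finrank F K * Nat.card (fixd σ) < Nat.card (fixd σ) ^ finrank F K) ∨
      4 ≤ finrank K (Fin n → F) := by
    have hmul := Module.finrank_mul_finrank F K (Fin n → F)
    rw [hfr, Module.finrank_fin_fun] at hmul
    have hQ : Nat.card (fixd σ) = q := by
      have h := card_base (conj hO)
      rw [Nat.card_eq_fintype_card, hF] at h
      exact (Nat.pow_left_injective two_ne_zero h).symm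
    have hq : 2 ≤ q := hQ ▸ two_le_card_base (conj hO)
    rcases hn with ⟨rfl, rfl⟩ | ⟨rfl, rfl, hq3⟩ | h
    · refine Or.inl ⟨by omega, ?_⟩
      rw [hfr, hQ, show q ^ 5 = q ^ 4 * q from pow_succ _ _]
      exact Nat.mul_lt_mul_of_pos_right
        (lt_of_lt_of_le (by norm_num) (Nat.pow_le_pow_left hq 4)) (by omega)
    · refine Or.inl ⟨by omega, ?_⟩
      rw [hfr, hQ, show q ^ 3 = q ^ 2 * q from pow_succ _ _]
      exact Nat.mul_lt_mul_of_pos_right
        (lt_of_lt_of_le (by norm_num) (Nat.pow_le_pow_left hq3 2)) (by omega)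
    · exact Or.inr (Nat.le_of_mul_le_mul_left (by rw [hmul, mul_comm r]; omega) hr.pos)
  refine ⟨lt_of_le_not_ge inf_le_right fun hge => ?_, fun M hle hMS => ?_⟩
  · -- a transvection over the ground field is not semilinear
    obtain ⟨w, -, hw, hww⟩ := exists_isotropic hO (good_top hO) (by rw [finrank_top]; omega)
    obtain ⟨z, hz⟩ := exists_pair hO hw
    have hfw : f w w = 0 := by rw [← hB, hww, map_zero]
    obtain ⟨c, hc0, hc⟩ := CfsgLib.UnitCentres.exists_traceZero hf
    have hT := hge (CfsgLib.UnitCentres.mem_special.2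
      ⟨CfsgLib.UnitCentres.uT_iso hf hfw hc, CfsgLib.UnitCentres.uT_mem_specialLinear hf hfw c⟩)
    have hgy : ∀ y, glEquiv (CfsgLib.UnitCentres.uT hf hfw c) y
        = y + (c * Algebra.trace F K (B y w)) • w := fun y => by
      rw [glEquiv_apply, CfsgLib.UnitCentres.uT_mulVec, hB]
    have hsm := (hsemi _).2 hT.1
    have hrel : ∀ l : K, algebraMap F K (c * Algebra.trace F K l) =
        l * algebraMap F K (c * Algebra.trace F K 1) := by
      intro l
      obtain ⟨l', hl'⟩ := hsm l
      have h1 := hl' w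
      rw [hgy, hgy, hO.smul_left, hww, mul_zero, map_zero, mul_zero, zero_smul, add_zero, add_zero] at h1
      have hll : l = l' := smul_left_injective K hw h1
      have h2 := hl' z
      rw [hgy, hgy, hO.smul_left, hz, mul_one, ← hll, smul_add, ← algebraMap_smul K (c * _) w,
        ← algebraMap_smul K (c * _) w, smul_smul] at h2
      exact smul_left_injective K hw (add_left_cancel h2)
    obtain ⟨l₁, hl₁⟩ := Algebra.trace_surjective F K 1
    by_cases h1 : Algebra.trace F K (1 : K) = 0
    · have := hrel l₁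
      rw [hl₁, h1, mul_zero, map_zero, mul_zero, mul_one] at this
      exact hc0 ((algebraMap F K).injective (this.trans (map_zero _).symm))
    · have htop : (⊤ : Submodule F K) ≤ F ∙ (1 : K) := fun l _ => by
        refine Submodule.mem_span_singleton.2 ⟨Algebra.trace F K l / Algebra.trace F K 1, ?_⟩
        have h2 := hrel l
        rw [map_mul, map_mul] at h2
        rw [Algebra.smul_def, mul_one, map_div₀, div_eq_iff (by simpa using h1)]
        exact mul_left_cancel₀ (by simpa using hc0 : algebraMap F K c ≠ 0) (by linear_combination h2)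
      have h3 := Submodule.finrank_mono htop
      rw [finrank_top, hfr] at h3
      have h4 : finrank F ↥(F ∙ (1 : K)) ≤ 1 := (finrank_span_le_card _).trans (by simp)
      have := hr.two_le
      omega
  · by_cases h : M.map (glEquiv (ι := Fin n) (F := F)).toMonoidHom ≤ semiLin F K (Fin n → F)
    · exact Or.inl (le_antisymm (le_inf (fun g hg => (hsemi g).1 (h ⟨g, hg, rfl⟩)) hMS) hle)
    refine Or.inr (le_antisymm hMS (CfsgLib.UnitCentres.gu_le_of_centres hF hn4 hσ hf fun v hv => ⟨hv, fun c hc => ?_⟩))
    obtain ⟨-, hcen⟩ := all_centres (hover M hle hMS) (hfr ▸ hr) (by rw [hfr]; exact h35) hm h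
      (y := v) (by rw [hB]; exact hv)
    obtain ⟨e, ⟨g, hg, rfl⟩, hey⟩ := hcen c hc
    have : CfsgLib.UnitCentres.uT hf hv c = g := CfsgLib.TransvGL.ext_mulVec fun y => by
      have h1 := hey y
      rw [hB] at h1
      rw [CfsgLib.UnitCentres.uT_mulVec, ← glEquiv_apply g y]
      exact h1.symm
    rw [this]
    exact hg

end CfsgLib.C3Unit91
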