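import Cfsg.Agent.C3Unit91.Basic

/-!
An additive family of skew maps containing the variations under transvections contains a square of a centre.
-/

set_option autoImplicit false
set_option linter.unusedSectionVars false

namespace CfsgLib.C3Unit91

open Module CfsgLib.C3Max

variable {F L : Type*} [Field F] [Field L] [Algebra F L] [Finite L] [FiniteDimensional F L]
  [Algebra.IsSeparable F L] {σ : F ≃+* F} {τ : L ≃+* L}

local notation "Tr" => Algebra.trace F L

/-- The skew map of two vectors. -/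
noncomputable def wedgeT (τ : L ≃+* L) (e q : L) : L →ₗ[F] L :=
  (Tr ∘ₗ LinearMap.mulLeft F (τ e)).smulRight q - (Tr ∘ₗ LinearMap.mulLeft F (τ q)).smulRight e

lemma wedgeT_apply (e q β : L) :
    wedgeT (F := F) τ e q β = Tr (τ e * β) • q - Tr (τ q * β) • e := rfl

/-- The square of a vector. -/
noncomputable def sqT (τ : L ≃+* L) (c : F) (e : L) : L →ₗ[F] L :=
  c • (Tr ∘ₗ LinearMap.mulLeft F (τ e)).smulRight e

lemma sqT_apply (c : F) (e β : L) : sqT τ c e β = (c * Tr (τ e * β)) • e := by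
  simp [sqT, smul_smul]

variable (hc : Conj σ τ)
include hc

lemma wedgeT_add_right (e q q' : L) :
    wedgeT (F := F) τ e (q + q') = wedgeT τ e q + wedgeT τ e q' := LinearMap.ext fun β => by
  simp only [LinearMap.add_apply, wedgeT_apply, map_add, add_mul, add_smul, smul_add]; abel

lemma wedgeT_add_left (e e' q : L) :
    wedgeT (F := F) τ (e + e') q = wedgeT τ e q + wedgeT τ e' q := LinearMap.ext fun β => by
  simp only [LinearMap.add_apply, wedgeT_apply, map_add, add_mul, add_smul, smul_add]; abel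

lemma wedgeT_smul_self (e : L) (c : F) : wedgeT (F := F) τ e (c • e) = sqT τ (c - σ c) e :=
  LinearMap.ext fun β => by
    rw [wedgeT_apply, sqT_apply, τ_smul hc, smul_mul_assoc, map_smul, smul_eq_mul, smul_smul, ← sub_smul]
    congr 1
    ring

lemma sqT_polar {c : F} (hc' : c + σ c = 0) (e e' : L) :
    sqT τ c (e + e') = sqT τ c e + sqT τ c e' + wedgeT τ e (c • e') := LinearMap.ext fun β => by
  simp only [LinearMap.add_apply, wedgeT_apply, sqT_apply, τ_smul hc, map_add, add_mul, smul_mul_assoc,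
    map_smul, smul_eq_mul, eq_neg_of_add_eq_zero_right hc']
  module

theorem exists_square (hr : (finrank F L).Prime) (h3 : 3 ≤ finrank F L)
    (T : (L →ₗ[F] L) → Prop) (hadd : ∀ A A', T A → T A' → T (A + A')) (hneg : ∀ A, T A → T (-A))
    (hscale : ∀ (l e q : L), τ l = l → l ≠ 0 → T (wedgeT τ e q) → T (wedgeT τ (l * e) (l * q)))
    {p : L} (hp : p ≠ 0) (E : AddSubgroup L) (hEker : ∀ e ∈ E, Tr (p * e) = 0)
    (hEsmul : ∀ s, σ s = s → ∀ e ∈ E, s • e ∈ E)
    (hEind : ∀ θ, σ θ ≠ θ → ∀ e ∈ E, ∀ e' ∈ E, e + θ • e' = 0 → e = 0 ∧ e' = 0)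
    (hEcard : Nat.card (fixd σ) ^ (finrank F L - 1) ≤ Nat.card E)
    (hdelta : ∀ e ∈ E, ∀ μ, μ + τ μ = 0 → T (wedgeT τ e (μ * τ p) + sqT τ (Tr (p * (μ * τ p))) e)) :
    ∃ e : L, e ≠ 0 ∧ ∀ c : F, c + σ c = 0 → T (sqT τ c e) := by
  haveI : Finite F := Finite.of_injective _ (algebraMap F L).injective
  set Q := Nat.card (fixd σ) with hQ
  have hQ2 : 2 ≤ Q := two_le_card_base hc
  have hn : p * τ p ≠ 0 := mul_ne_zero hp (by simpa using hp)
  have hn' : τ (p * τ p) = p * τ p := by rw [map_mul, hc.invol, mul_comm]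
  obtain ⟨ε, hε, hε'⟩ := exists_skew hc
  have hμ : ∀ c : F, c + σ c = 0 → ∃ μ, μ + τ μ = 0 ∧ Tr (p * (μ * τ p)) = c := by
    intro c hc'
    obtain ⟨l, hl, hl'⟩ := exists_real_trace_eq hc hn hn' (c := c / ε) (by
      rw [map_div₀, eq_neg_of_add_eq_zero_right hc', eq_neg_of_add_eq_zero_right hε', neg_div_neg_eq])
    refine ⟨ε • l, by rw [τ_smul hc, hl, ← add_smul, hε', zero_smul], ?_⟩
    rw [smul_mul_assoc, mul_smul_comm, map_smul, smul_eq_mul, mul_left_comm p l, hl', mul_div_cancel₀ _ hε]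
  have hsub : ∀ A A', T A → T A' → T (A - A') := fun A A' h h' => by
    rw [sub_eq_add_neg]; exact hadd _ _ h (hneg _ h')
  have hpolar : ∀ e ∈ E, ∀ e' ∈ E, ∀ c : F, c + σ c = 0 → T (wedgeT τ e (c • e')) := by
    intro e he e' he' c hc'
    obtain ⟨μ, h1, h2⟩ := hμ c hc'
    have h := hsub _ _ (hsub _ _ (hdelta _ (E.add_mem he he') μ h1) (hdelta e he μ h1)) (hdelta e' he' μ h1)
    rw [h2, sqT_polar hc hc', wedgeT_add_left hc] at h
    convert h using 1
    abel
  obtain ⟨e₀, he₀, he₀0⟩ : ∃ e ∈ E, e ≠ 0 := by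
    by_contra! h
    have h1 : Nat.card E ≤ 1 := by
      rw [show E = ⊥ from (AddSubgroup.eq_bot_iff_forall _).2 h, AddSubgroup.card_bot]
    have h2 : Q ^ 1 ≤ Q ^ (finrank F L - 1) := Nat.pow_le_pow_right (by omega) (by omega)
    rw [pow_one] at h2
    omega
  by_cases h2 : (2 : F) ≠ 0
  · refine ⟨e₀, he₀0, fun c hc' => ?_⟩
    have h := hpolar e₀ he₀ e₀ he₀ (c / 2) (by
      rw [map_div₀, map_ofNat, ← add_div, hc', zero_div])
    rw [wedgeT_smul_self hc] at h
    rwa [map_div₀, map_ofNat, eq_neg_of_add_eq_zero_right hc', ← sub_div, sub_neg_eq_add, ← two_mul,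
      mul_div_cancel_left₀ _ h2] at h
  push Not at h2
  have hfix : ∀ c : F, c + σ c = 0 → σ c = c := fun c hc' => by
    linear_combination hc' - c * h2
  have hfix' : ∀ c : F, σ c = c → c + σ c = 0 := fun c hc' => by
    rw [hc']; linear_combination c * h2
  have two : (2 : L) = 0 := by
    have := congrArg (algebraMap F L) h2
    rwa [map_ofNat, map_zero] at this
  have hreal : ∀ μ : L, τ μ = μ → μ + τ μ = 0 := fun μ hμ' => by
    rw [hμ']; linear_combination μ * two
  let A : L →ₗ[F] F := Tr ∘ₗ LinearMap.mulRight F (p * τ p)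
  have hA : ∀ l, A l = Tr (l * (p * τ p)) := fun l => rfl
  have hAp : ∀ l, Tr (p * (l * τ p)) = A l := fun l => by rw [hA, mul_left_comm]
  let W : AddSubgroup L := fixd τ ⊓ (LinearMap.ker A).toAddSubgroup
  have hW : Q ^ (finrank F L - 1) ≤ Nat.card W := by
    let f : fixd τ →+ fixd σ :=
      { toFun := fun l => ⟨A l, by
          show σ (A l) = A l
          rw [hA, ← hc.tr, map_mul τ, mem_fixd.1 l.2, hn']⟩
        map_zero' := Subtype.ext (map_zero A)
        map_add' := fun a b => Subtype.ext (map_add A _ _) }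
    have h1 := f.ker.card_eq_card_quotient_mul_card_addSubgroup
    have h2 : Nat.card (fixd τ ⧸ f.ker) ≤ Q := by
      rw [Nat.card_congr (QuotientAddGroup.quotientKerEquivRange f).toEquiv]
      exact Nat.card_le_card_of_injective _ Subtype.val_injective
    have h3 : Nat.card f.ker ≤ Nat.card W := Nat.card_le_card_of_injective
      (fun l => (⟨(l : fixd τ), (l : fixd τ).2, congrArg Subtype.val l.2⟩ : W))
      fun a b h => Subtype.ext (Subtype.ext (congrArg Subtype.val h :))
    rw [card_fixd hc, ← Nat.succ_pred_eq_of_pos (by omega : 0 < finrank F L), pow_succ'] at h1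
    rw [← Nat.pred_eq_sub_one]
    exact Nat.le_of_mul_le_mul_left (h1 ▸ Nat.mul_le_mul h2 h3) (by omega)
  have hHW : ∀ e ∈ E, ∀ μ ∈ W, T (wedgeT τ e (μ * τ p)) := by
    intro e he μ hμW
    have h := hdelta e he μ (hreal μ hμW.1)
    rw [hAp, show A μ = 0 from hμW.2] at h
    rwa [show sqT τ (0 : F) e = 0 from LinearMap.ext fun β => by simp [sqT_apply], add_zero] at h
  obtain ⟨θ, hθ⟩ := hc.ne
  let φ : L →ₗ[F] F := Tr ∘ₗ LinearMap.mulLeft F p
  have hφ : ∀ l, φ l = Tr (p * l) := fun l => rfl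
  let g : E × E → LinearMap.ker φ := fun x => ⟨(x.1 : L) + θ • (x.2 : L), by
    rw [LinearMap.mem_ker, map_add, map_smul, hφ, hφ, hEker _ x.1.2, hEker _ x.2.2, smul_zero, add_zero]⟩
  have hg : Function.Injective g := by
    rintro ⟨a, b⟩ ⟨a', b'⟩ h
    have h' := congrArg Subtype.val h
    obtain ⟨h1, h2'⟩ := hEind θ hθ ((a : L) - a') (E.sub_mem a.2 a'.2) ((b : L) - b') (E.sub_mem b.2 b'.2)
      (by simp only [g] at h'; simp only [smul_sub]; linear_combination (norm := module) h')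
    exact Prod.ext (Subtype.ext (sub_eq_zero.1 h1)) (Subtype.ext (sub_eq_zero.1 h2'))
  have hker : Nat.card (LinearMap.ker φ) = (Q ^ (finrank F L - 1)) * (Q ^ (finrank F L - 1)) := by
    rw [card_submodule hc, ← pow_add, ← two_mul]
    congr 2
    have h1 := LinearMap.finrank_range_add_finrank_ker φ
    have h2' : LinearMap.range φ = ⊤ := LinearMap.range_eq_top.2 (LinearMap.surjective fun h0 => hp
      (eq_zero_of_trace (F := F) fun l => by rw [mul_comm, ← hφ, h0]; rfl))
    rw [h2', finrank_top, finrank_self] at h1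
    omega
  have hbij : Function.Bijective g := hg.bijective_of_nat_card_le (by
    rw [hker, Nat.card_prod]; exact Nat.mul_le_mul hEcard hEcard)
  by_cases hsub' : ∃ μ ∈ W, μ * τ p ∉ E
  · obtain ⟨μ, hμW, hμE⟩ := hsub'
    obtain ⟨⟨a, b⟩, hab⟩ := hbij.2 ⟨μ * τ p, by
      rw [LinearMap.mem_ker, hφ, hAp]; exact hμW.2⟩
    have hab' : (a : L) + θ • (b : L) = μ * τ p := congrArg Subtype.val hab
    refine ⟨b, fun h0 => hμE ?_, fun c hc' => ?_⟩
    · rw [← hab', h0, smul_zero, add_zero]; exact a.2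
    set s := c / (θ - σ θ) with hs
    have hs' : σ s = s := by
      rw [hs, map_div₀, map_sub, hc.inv, hfix c hc', show σ θ - θ = θ - σ θ by
        linear_combination (σ θ - θ) * h2]
    have hsμ : s • μ ∈ W := ⟨by
      show τ _ = _
      rw [τ_smul hc, show τ μ = μ from hμW.1, hs'], (LinearMap.ker A).smul_mem s hμW.2⟩
    have h1 := hHW b b.2 _ hsμ
    have h3 := hpolar b b.2 _ (hEsmul s hs' a a.2) 1 (hfix' 1 (map_one σ))
    rw [one_smul] at h3
    rw [smul_mul_assoc, ← hab', smul_add, smul_smul, wedgeT_add_right hc, wedgeT_smul_self hc] at h1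
    have h4 := hsub _ _ h1 h3
    rw [add_sub_cancel_left, map_mul, hs', ← mul_sub, hs,
      div_mul_cancel₀ _ (sub_ne_zero.2 (Ne.symm hθ))] at h4
    exact h4
  push Not at hsub'
  obtain ⟨w', hw'W, hw'0⟩ : ∃ w ∈ W, w ≠ 0 := by
    by_contra! h
    have h1 : Nat.card W ≤ 1 := by
      rw [show W = ⊥ from (AddSubgroup.eq_bot_iff_forall _).2 h, AddSubgroup.card_bot]
    have h2' : Q ^ 1 ≤ Q ^ (finrank F L - 1) := Nat.pow_le_pow_right (by omega) (by omega)
    rw [pow_one] at h2'
    omega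
  by_cases hinv : ∃ w ∈ W, ∃ x ∈ W, ∃ u ∈ W, u ≠ 0 ∧ w / u * x ∉ W
  · obtain ⟨w, hwW, x, hxW, u, huW, hu0, hout⟩ := hinv
    set l := w / u with hl
    have hlr : τ l = l := by rw [hl, map_div₀, show τ w = w from hwW.1, show τ u = u from huW.1]
    have hxr : τ (l * x) = l * x := by rw [map_mul, hlr, show τ x = x from hxW.1]
    have hl0 : l ≠ 0 := fun h0 => hout (by rw [h0, zero_mul]; exact W.zero_mem)
    have hA0 : A (l * x) ≠ 0 := fun h0 => hout ⟨hxr, h0⟩
    have hw0 : w ≠ 0 := fun h0 => hl0 (by rw [hl, h0, zero_div])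
    refine ⟨w * τ p, mul_ne_zero hw0 (by simpa using hp), fun c hc' => ?_⟩
    obtain ⟨μ, hμr, hμc⟩ := exists_real_trace_eq hc hn hn' (c := c) (hfix c hc')
    set s := A μ / A (l * x) with hs
    have hAr : ∀ y, τ y = y → σ (A y) = A y := fun y hy => by rw [hA, ← hc.tr, map_mul τ, hy, hn']
    have hs' : σ s = s := by rw [hs, map_div₀, hAr _ hμr, hAr _ hxr]
    have hsx : s • x ∈ W := ⟨by
      show τ _ = _
      rw [τ_smul hc, show τ x = x from hxW.1, hs'], (LinearMap.ker A).smul_mem s hxW.2⟩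
    have h1 := hscale l _ _ hlr hl0 (hHW (u * τ p) (hsub' u huW) _ hsx)
    rw [show l * (u * τ p) = w * τ p by rw [hl]; field_simp,
      show l * ((s • x) * τ p) = (s • (l * x)) * τ p by
        rw [smul_mul_assoc, mul_smul_comm, smul_mul_assoc, mul_assoc]] at h1
    have hrest : μ - s • (l * x) ∈ W := ⟨by
      show τ _ = _
      rw [map_sub, τ_smul hc, hμr, hxr, hs'], by
      show A _ = 0
      rw [map_sub, map_smul, smul_eq_mul, hs, div_mul_cancel₀ _ hA0, sub_self]⟩
    have h3 := hadd _ _ h1 (hHW (w * τ p) (hsub' w hwW) _ hrest)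
    rw [← wedgeT_add_right hc, ← add_mul, add_sub_cancel] at h3
    have h4 := hsub _ _ (hdelta _ (hsub' w hwW) μ (hreal μ hμr)) h3
    rw [add_sub_cancel_left, mul_left_comm, hμc] at h4
    exact h4
  exfalso
  push Not at hinv
  obtain ⟨w, hwW, hwF⟩ : ∃ w ∈ W, w / w' ∉ (algebraMap F L).range := by
    by_contra! h
    have hle : Nat.card W ≤ Q := by
      refine Nat.card_le_card_of_surjective
        (fun s : fixd σ => (⟨(s : F) • w', ?_, (LinearMap.ker A).smul_mem (s : F) hw'W.2⟩ : W)) ?_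
      · show τ _ = _
        rw [τ_smul hc, show τ w' = w' from hw'W.1, mem_fixd.1 s.2]
      rintro ⟨w, hw⟩
      obtain ⟨c, hc'⟩ := h w hw
      have hcf : σ c = c := (algebraMap F L).injective (by
        rw [← hc.base, hc', map_div₀, show τ w = w from hw.1, show τ w' = w' from hw'W.1])
      exact ⟨⟨c, hcf⟩, Subtype.ext (show c • w' = w by
        rw [Algebra.smul_def, hc', div_mul_cancel₀ _ hw'0])⟩
    have h2' : Q ^ 2 ≤ Q ^ (finrank F L - 1) := Nat.pow_le_pow_right (by omega) (by omega)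
    nlinarith
  set D := Submodule.span F (W : Set L) with hD
  have hstable : ∀ y ∈ D, w / w' * y ∈ D := by
    intro y hy
    have : D ≤ D.comap (LinearMap.mulLeft F (w / w')) := Submodule.span_le.2 fun x hx =>
      Submodule.subset_span (hinv w hwW x hx w' hw'W hw'0)
    exact this hy
  have htop := mul_mem_of_adjoin hr hwF hstable
  obtain ⟨l, hl, hl'⟩ := exists_real_trace hc hn
  have hDA : D ≤ LinearMap.ker A := Submodule.span_le.2 fun x hx => hx.2
  have := hDA (htop (l * w'⁻¹) (Submodule.subset_span hw'W))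
  rw [inv_mul_cancel_right₀ hw'0] at this
  exact hl' this

end CfsgLib.C3Unit91
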