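import Cfsg.Agent.C3Unit91.Herm
import Cfsg.Agent.C3Unit91.Coeff
import Cfsg.Agent.C3Unit91.Square
import Cfsg.Agent.C3Unit91.Isotropic

/-!
An overgroup of the isometries over an extension field that is not semilinear contains a transvection group
over the ground field with centre isotropic over the extension field.
-/

set_option autoImplicit false
set_option linter.unusedSectionVars false
set_option linter.style.haveILetI false

namespace CfsgLib.C3Unit91

open Module CfsgLib.C3Max CfsgLib.FieldExtMax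

variable {F L V : Type*} [Field F] [Field L] [Algebra F L] [AddCommGroup V] [Module F V]
  [Module L V] [IsScalarTower F L V] [Finite L] [FiniteDimensional F L] [IsGalois F L]
  [FiniteDimensional F V] [FiniteDimensional L V]

local notation "Tr" => Algebra.trace F L

variable {σ : F ≃+* F} {τ : L ≃+* L} {B : V → V → L} {M : Subgroup (V ≃ₗ[F] V)} (hB : Over σ τ B M)
include hB

/-- `M` has an isometry over the extension field mapping `x` to `y`. -/
def Moves (B : V → V → L) (M : Subgroup (V ≃ₗ[F] V)) (x y : V) : Prop :=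
  ∃ g ∈ M, g x = y ∧ (∀ (c : L) z, g (c • z) = c • g z) ∧ ∀ z w, B (g z) (g w) = B z w

omit hB in
/-- The root element `y ↦ y + T (B y a) • a` lies in `M`. -/
def Root (hB : Over σ τ B M) (a : V) (T : L →ₗ[F] L) : Prop := InM M (rootMap T (bFun hB a) a)

lemma moves_of {x y : V} (hxx : B x x = 0) (hyy : B y y = 0) (hne : B x y ≠ 0)
    (hsk : B x y + τ (B x y) = 0) : Moves B M x y := by
  have hd : B (y - x) (y - x) = 0 := by
    rw [sub_left hB, sub_right hB, sub_right hB, hxx, hyy, hB.herm x y]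
    linear_combination -hsk
  have hxd : B x (y - x) = B x y := by rw [sub_right hB, hxx, sub_zero]
  obtain ⟨g, hg, hgy⟩ := exists_transv hB hd (c := (B x y)⁻¹) (by
    rw [map_inv₀, eq_neg_of_add_eq_zero_right hsk, inv_neg, add_neg_cancel])
  refine ⟨g, hg, by rw [hgy, hxd, inv_mul_cancel₀ hne, one_smul, add_sub_cancel], fun c z => ?_,
    fun z w => ?_⟩
  · rw [hgy, hgy, hB.smul_left, smul_add, smul_smul]
    congr 2; ring
  · rw [hgy, hgy]
    simp only [hB.add_left, add_right hB, hB.smul_left, smul_right hB, hd, map_mul, map_inv₀,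
      ← hB.herm w (y - x), eq_neg_of_add_eq_zero_right hsk, inv_neg]
    ring

lemma moves_real {a : V} (ha : a ≠ 0) (haa : B a a = 0) {l : L} (hl : τ l = l) (hl0 : l ≠ 0) :
    Moves B M a (l • a) := by
  obtain ⟨b, hbb, hba, hab⟩ := exists_partner hB ha haa
  obtain ⟨k, hk0, hk, -⟩ := exists_skew' hB
  obtain ⟨g, hg, hga, hgl, hgB⟩ := moves_of hB haa (y := k • b)
    (by rw [hB.smul_left, smul_right hB, hbb, mul_zero, mul_zero])
    (by rw [smul_right hB, hab, mul_one]; simpa using hk0)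
    (by rw [smul_right hB, hab, mul_one, hB.invol, add_comm]; exact hk)
  obtain ⟨g', hg', hga', hgl', hgB'⟩ := moves_of hB (x := k • b) (y := l • a)
    (by rw [hB.smul_left, smul_right hB, hbb, mul_zero, mul_zero])
    (by rw [hB.smul_left, smul_right hB, haa, mul_zero, mul_zero])
    (by rw [hB.smul_left, smul_right hB, hba, hl, mul_one]; exact mul_ne_zero hk0 hl0)
    (by rw [hB.smul_left, smul_right hB, hba, hl, mul_one, map_mul, hl, ← add_mul, hk, zero_mul])
  exact ⟨g' * g, M.mul_mem hg' hg, by rw [LinearEquiv.mul_apply, hga, hga'],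
    fun c z => by simp [LinearEquiv.mul_apply, hgl, hgl'], fun z w => by
      simp [LinearEquiv.mul_apply, hgB, hgB']⟩

variable {a : V}

lemma root_add (haa : B a a = 0) {T T' : L →ₗ[F] L} (h : Root hB a T) (h' : Root hB a T') :
    Root hB a (T + T') :=
  (h.add h' fun y => by simp [hB.smul_left, haa]).congr fun y => by simp [add_smul]

lemma root_neg (haa : B a a = 0) {T : L →ₗ[F] L} (h : Root hB a T) : Root hB a (-T) :=
  (h.neg fun y => by simp [hB.smul_left, haa]).congr fun y => by simp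

lemma root_mul (haa : B a a = 0) {μ : L} (hμ : μ + τ μ = 0) : Root hB a (LinearMap.mulLeft F μ) := by
  obtain ⟨g, hg, hgy⟩ := exists_transv hB haa hμ
  exact ⟨g, hg, fun y => by rw [hgy]; simp⟩

lemma root_real (ha : a ≠ 0) (haa : B a a = 0) {l : L} (hl : τ l = l) (hl0 : l ≠ 0) {T : L →ₗ[F] L}
    (h : Root hB a T) : Root hB a (LinearMap.mulLeft F l ∘ₗ T ∘ₗ LinearMap.mulLeft F l) := by
  obtain ⟨g, hg, hga, hgl, hgB⟩ := moves_real hB ha haa hl hl0
  refine (h.conj hg).congr fun y => ?_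
  change (l * T (l * B y a)) • a = g (T (B (g.symm y) a) • a)
  have e : B (g.symm y) a = l * B y a := by
    have := hgB (g.symm y) a
    rw [g.apply_symm_apply, hga, smul_right hB, hl] at this
    exact this.symm
  rw [hgl, hga, smul_smul, e, mul_comm]

variable {x : V ≃ₗ[F] V} {e p : L}

/-- The trace adjoint of the action on the line. -/
lemma adjoint_line (hx : x ∈ M) (hxa : ∀ l : L, x (l • a) = (l + Tr (p * l) • e) • a) (y : V) :
    B (x.symm y) a = B y a + Tr (τ e * B y a) • τ p := eq_of_trace (F := F) fun m => by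
  have h := hB.pres x hx (x.symm y) (τ m • a)
  rw [x.apply_symm_apply, hxa] at h
  simp only [smul_right hB, hB.invol, map_add, τ_smul (conj hB)] at h
  rw [← h, add_mul, map_add, mul_add, map_add, smul_mul_assoc, map_smul, mul_smul_comm, map_smul,
    smul_eq_mul, smul_eq_mul, ← hB.tr, map_mul τ, hB.invol, mul_comm (τ p) m]
  ring

lemma root_delta (haa : B a a = 0) (hx : x ∈ M) (hxa : ∀ l : L, x (l • a) = (l + Tr (p * l) • e) • a)
    {μ : L} (hμ : μ + τ μ = 0) :
    Root hB a (wedgeT τ e (μ * τ p) + sqT τ (Tr (p * (μ * τ p))) e) := by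
  have h1 : InM M _ := (root_mul hB haa hμ).conj hx
  have h2 : InM M _ := h1.add (root_neg hB haa (root_mul hB haa hμ)) fun y => by
    simp only [LinearMap.comp_apply, rootMap_apply, LinearEquiv.coe_coe, LinearMap.neg_apply, bFun_apply]
    erw [adjoint_line hB hx hxa]
    rw [hB.smul_left, haa, mul_zero]
    simp
  refine h2.congr fun y => ?_
  simp only [LinearMap.add_apply, LinearMap.comp_apply, rootMap_apply, LinearEquiv.coe_coe,
    LinearMap.neg_apply, bFun_apply, LinearMap.mulLeft_apply, wedgeT_apply, sqT_apply]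
  erw [hxa, adjoint_line hB hx hxa]
  rw [← add_smul]
  congr 1
  have e1 : τ (μ * τ p) = -(μ * p) := by
    rw [map_mul, hB.invol, eq_neg_of_add_eq_zero_right hμ, neg_mul]
  rw [e1, neg_mul, map_neg, neg_smul, sub_neg_eq_add, mul_add, mul_add, map_add, add_smul,
    mul_smul_comm, mul_smul_comm, map_smul, smul_eq_mul, ← mul_assoc, mul_comm p μ,
    mul_comm (Tr (τ e * B y a))]
  simp only [← mul_assoc, mul_comm p μ]
  module

section pair

variable {h : V ≃ₗ[F] V} {v x₀ : V}

/-- Members are totally isotropic for the form over the ground field. -/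
lemma member_iso {x₀ : V} (hxx : B x₀ x₀ = 0) {h : V ≃ₗ[F] V} (hh : h ∈ M) {y z : V}
    (hy : y ∈ (lineF L x₀).map (h : V →ₗ[F] V)) (hz : z ∈ (lineF L x₀).map (h : V →ₗ[F] V)) :
    Tr (B y z) = 0 := by
  obtain ⟨y, hy, rfl⟩ := hy
  obtain ⟨z, hz, rfl⟩ := hz
  obtain ⟨k, rfl⟩ := mem_lineF.1 hy
  obtain ⟨k', rfl⟩ := mem_lineF.1 hz
  rw [show Tr (B ((h : V →ₗ[F] V) (k • x₀)) ((h : V →ₗ[F] V) (k' • x₀))) = _ from hB.pres h hh _ _]
  simp [hB.smul_left, smul_right hB, hxx]

omit hB in
lemma isoP_smul (hB : Over σ τ B M) (l : L) (a : V) (ha : B a a = 0) : B (l • a) (l • a) = 0 := by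
  rw [hB.smul_left, smul_right hB, ha, mul_zero, mul_zero]

/-- The coefficient space of a member on the line of `v`. -/
def coeffC (L : Type*) [Field L] [Algebra F L] [Module L V] [IsScalarTower F L V] (S : Submodule F V)
    (v : V) : Submodule F L :=
  S.comap ((LinearMap.toSpanSingleton L V v).restrictScalars F)

omit hB in
lemma mem_coeffC {S : Submodule F V} {c : L} : c ∈ coeffC L S v ↔ c • v ∈ S := Iff.rfl

/-- A member meeting the orthogonal space off the line lies in the orthogonal space. -/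
lemma orth_of_orth (hp : IsMaxPair L (fun a => B a a = 0) M h v x₀) {u : V}
    (hu : u ∈ (lineF L x₀).map (h : V →ₗ[F] V)) (huv : B u v = 0) (hul : u ∉ lineF L v (F := F))
    {y : V} (hy : y ∈ (lineF L x₀).map (h : V →ₗ[F] V)) : B y v = 0 := by
  obtain ⟨hh, hvv, hxx, hv, hx, hvS, hSne⟩ := hp.1
  set S := (lineF L x₀).map (h : V →ₗ[F] V) with hS
  have hC1 : (1 : L) ∈ coeffC L S v := by rw [mem_coeffC, one_smul]; exact hvS
  obtain ⟨b, hbv, hub⟩ := exists_sep hB hv hul
  have hvb : B v b = 0 := orth_comm hB hbv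
  -- the element fixes the intersection
  have hmem : ∀ c : L, c + τ c = -B b b →
      ∀ y ∈ S, B y v • b + (c * B y v - B y b) • v ∈ S := by
    intro c hc
    have h1 : bFun hB v b = 0 := hbv
    have h2 : ((c + B b b) • bFun hB v - bFun hB b) v = 0 := by simp [hvv, hvb]
    set e := (LinearEquiv.transvection h1).trans (LinearEquiv.transvection h2) with he
    have hey : ∀ y, e y = y + (B y v • b + (c * B y v - B y b) • v) := fun y => by
      simp only [he, LinearEquiv.trans_apply, LinearEquiv.transvection.coe_apply, LinearMap.transvection.apply,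
        LinearMap.sub_apply, LinearMap.smul_apply, bFun_apply, smul_eq_mul, hB.add_left, hB.smul_left, hbv]
      module
    have hgM : e.restrictScalars F ∈ M := hB.lin e (fun y z => by
      rw [hey, hey]
      simp only [hB.add_left, add_right hB, hB.smul_left, smul_right hB, hvv, hbv, hvb, map_sub, map_mul,
        ← hB.herm y v, ← hB.herm z v, ← hB.herm y b, ← hB.herm z b]
      linear_combination (B y v * B v z) * hc) (by
      rw [he, LinearEquiv.coe_trans, LinearMap.det_comp, LinearEquiv.transvection.coe_toLinearMap,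
        LinearEquiv.transvection.coe_toLinearMap, LinearMap.transvection.det, LinearMap.transvection.det,
        h1, h2, add_zero, one_mul, map_one])
    have hst := hp.stab (isoP_smul hB) hgM (fun y hy => by
      obtain ⟨l, hl⟩ := mem_lineF.1 hy.1
      exact ⟨y, hy.2, by
        show e y = y
        rw [hey, ← hl, hB.smul_left, hB.smul_left, hvv, hvb]; simp⟩) hul hu
      ⟨u + v, S.add_mem hu hvS, by
        show e (u + v) = u
        rw [hey, hB.add_left, hB.add_left, huv, hvv, hub, hvb]; simp⟩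
    intro y hy
    have hm : e y ∈ S := by rw [hS, ← hst]; exact ⟨y, hy, rfl⟩
    rw [hey] at hm
    have := S.sub_mem hm hy
    rwa [add_sub_cancel_left] at this
  obtain ⟨c₀, hc₀⟩ := exists_trace_sum hB (r := -B b b) (by rw [map_neg, self_fixed hB])
  by_contra hg
  obtain ⟨ε, hε0, hε, f, hf⟩ := exists_skew' hB
  have hreal : ∀ μ : L, τ μ = μ → μ * B y v ∈ coeffC L S v := by
    intro μ hμ
    have h1 := hmem (c₀ + ε * μ) (by rw [map_add, map_mul, hμ]; linear_combination hc₀ + μ * hε) y hy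
    have h2 := hmem c₀ hc₀ y hy
    have h3 := S.sub_mem h1 h2
    rw [mem_coeffC]
    have h4 : (ε * μ * B y v) • v ∈ S := by
      refine (congrArg (· ∈ S) ?_).mp h3
      module
    have h5 := S.smul_mem f⁻¹ h4
    rw [← smul_assoc, Algebra.smul_def, ← mul_assoc, ← mul_assoc, hf, map_inv₀,
      inv_mul_cancel₀ (hf ▸ hε0), one_mul] at h5
    exact h5
  obtain ⟨θ, hθ⟩ := hB.ne
  refine hSne (Submodule.eq_of_le_of_finrank_eq ?_ (by
    rw [finrank_lineF hv, hS, LinearEquiv.finrank_map_eq, finrank_lineF hx])).symm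
  intro z hz
  obtain ⟨l, rfl⟩ := mem_lineF.1 hz
  obtain ⟨a₁, a₂, h1, h2, ha⟩ := exists_decomp (conj hB) hθ (l / B y v)
  have hl : l = a₁ * B y v + θ • (a₂ * B y v) := by
    rw [← smul_mul_assoc, ← add_mul, ← ha, div_mul_cancel₀ _ hg]
  have := (coeffC L S v).add_mem (hreal a₁ h1) ((coeffC L S v).smul_mem θ (hreal a₂ h2))
  rw [← hl] at this
  exact this

/-- A maximal pair whose member is not orthogonal to the line gives a square of a centre. -/
lemma exists_root_of_pair (hr : (finrank F L).Prime) (h35 : finrank F L = 3 ∨ finrank F L = 5)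
    (hp : IsMaxPair L (fun a => B a a = 0) M h v x₀) {u : V}
    (hu : u ∈ (lineF L x₀).map (h : V →ₗ[F] V)) (huv : B u v ≠ 0) :
    ∃ e : L, e ≠ 0 ∧ ∀ c : F, c + σ c = 0 → Root hB x₀ (sqT τ c e) := by
  haveI : Finite F := Finite.of_injective _ (algebraMap F L).injective
  obtain ⟨hh, hvv, hxx, hv, hx, hvS, hSne⟩ := hp.1
  set S := (lineF L x₀).map (h : V →ₗ[F] V) with hS
  set C := coeffC L S v with hC
  let γ : V →ₗ[F] L := (bFun hB v).restrictScalars F
  have hγ : ∀ y, γ y = B y v := fun y => rfl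
  set G := S.map γ with hG
  have hC1 : (1 : L) ∈ C := by rw [hC, mem_coeffC, one_smul]; exact hvS
  have horth : ∀ y ∈ S, B y v = 0 → y ∈ lineF L v (F := F) := by
    intro y hy hyv
    by_contra hyl
    exact huv (orth_of_orth hB hp hy hyv hyl hu)
  have hG0 : G ≠ ⊥ := fun h0 => huv (by
    have : γ u ∈ G := ⟨u, hu, rfl⟩
    rw [h0, Submodule.mem_bot] at this
    exact this)
  have hCG : ∀ c ∈ C, ∀ g ∈ G, Tr (c * τ g) = 0 := by
    rintro c hc _ ⟨y, hy, rfl⟩
    have := member_iso hB hxx hh hc hy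
    change Tr (B (c • v) y) = 0 at this
    rwa [hB.smul_left, hB.herm y v] at this
  have hdim : finrank F C + finrank F G = finrank F L := by
    let f : S →ₗ[F] L := γ ∘ₗ S.subtype
    have h1 := LinearMap.finrank_range_add_finrank_ker f
    have h2 : LinearMap.range f = G := by rw [LinearMap.range_comp, Submodule.range_subtype]
    let j : C →ₗ[F] LinearMap.ker f :=
      { toFun := fun c => ⟨⟨(c : L) • v, c.2⟩, by
          show B ((c : L) • v) v = 0
          rw [hB.smul_left, hvv, mul_zero]⟩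
        map_add' := fun a b => Subtype.ext (Subtype.ext (add_smul _ _ _))
        map_smul' := fun a b => Subtype.ext (Subtype.ext (smul_assoc _ _ _)) }
    have hj : Function.Bijective j := by
      refine ⟨fun a b hab => Subtype.ext (smul_left_injective L hv (congrArg Subtype.val (congrArg Subtype.val hab) :)),
        fun z => ?_⟩
      obtain ⟨l, hl⟩ := mem_lineF.1 (horth _ (z : S).2 z.2)
      exact ⟨⟨l, mem_coeffC.2 (hl ▸ (z : S).2)⟩, Subtype.ext (Subtype.ext hl)⟩
    rw [h2, ← (LinearEquiv.ofBijective j hj).finrank_eq, hS, LinearEquiv.finrank_map_eq,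
      finrank_lineF hx] at h1
    omega
  obtain ⟨ε, hε0, hε, f₀, hf₀⟩ := exists_skew' hB
  have hf₀0 : f₀ ≠ 0 := fun h0 => hε0 (by rw [hf₀, h0, map_zero])
  have hεC : ∀ l, ε * l ∈ C ↔ l ∈ C := fun l => by
    rw [hf₀, ← Algebra.smul_def]; exact C.smul_mem_iff hf₀0
  have hst : ∀ l g, τ l = l → g ∈ G → g ≠ 0 → l * g ∈ C → ∀ g' ∈ G, l * g' ∈ C := by
    rintro l _ hl ⟨y, hy, rfl⟩ hg hlg _ ⟨y', hy', rfl⟩
    have hyl : y ∉ lineF L v (F := F) := fun hm => by
      obtain ⟨k, rfl⟩ := mem_lineF.1 hm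
      exact hg (by rw [hγ, hB.smul_left, hvv, mul_zero])
    obtain ⟨t, ht, hty⟩ := exists_transv hB hvv (c := ε * l) (by
      rw [map_mul, hl, ← add_mul, hε, zero_mul])
    have hcy : (ε * l * B y v) • v ∈ S := by rw [mul_assoc]; exact mem_coeffC.1 ((hεC _).2 hlg)
    have hs := hp.stab (isoP_smul hB) ht (fun z hz => by
      obtain ⟨k, hk⟩ := mem_lineF.1 hz.1
      exact ⟨z, hz.2, by
        show t z = z
        rw [hty, ← hk, hB.smul_left, hvv]; simp⟩) hyl hy
      ⟨y - (ε * l * B y v) • v, S.sub_mem hy hcy, by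
        show t (y - (ε * l * B y v) • v) = y
        rw [hty, sub_left hB, hB.smul_left, hvv, mul_zero, sub_zero, sub_add_cancel]⟩
    have hm : t y' ∈ S := by rw [hS, ← hs]; exact ⟨y', hy', rfl⟩
    rw [hty] at hm
    have h5 := S.sub_mem hm hy'
    rw [add_sub_cancel_left, mul_assoc] at h5
    exact (hεC _).1 (mem_coeffC.2 h5)
  have hk := finrank_coeff (conj hB) hr h35 hC1 hG0 hCG hdim hst
  -- the functional on the line
  obtain ⟨g₀', hg₀'0, hg₀sp⟩ := finrank_eq_one_iff'.1 hk
  set g₀ : L := (g₀' : L) with hg₀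
  have hg₀0 : g₀ ≠ 0 := fun h0 => hg₀'0 (Subtype.ext h0)
  choose φ hφ using fun l : L => hg₀sp ⟨γ (h (l • x₀)), ⟨_, ⟨_, mem_lineF.2 ⟨l, rfl⟩, rfl⟩, rfl⟩⟩
  have hφ' : ∀ l, φ l • g₀ = B (h (l • x₀)) v := fun l => congrArg Subtype.val (hφ l)
  have hinj : ∀ a b : F, a • g₀ = b • g₀ → a = b := fun a b hab => smul_left_injective F hg₀0 hab
  let φ' : L →ₗ[F] F :=
    { toFun := φ
      map_add' := fun a b => hinj _ _ (by
        rw [add_smul, hφ', hφ', hφ', add_smul, map_add, hB.add_left])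
      map_smul' := fun a b => hinj _ _ (by
        rw [RingHom.id_apply, smul_eq_mul, mul_smul, hφ', hφ', smul_assoc, map_smul,
          ← hγ, map_smul, hγ]) }
  obtain ⟨p, hpφ⟩ := exists_trace_eq φ'
  have hφp : ∀ l, φ l = Tr (p * l) := hpφ
  have hp0 : p ≠ 0 := by
    intro h0
    obtain ⟨z, hz, hzu⟩ := hu
    obtain ⟨l, rfl⟩ := mem_lineF.1 hz
    change h (l • x₀) = u at hzu
    apply huv
    rw [← hzu, ← hφ', hφp, h0, zero_mul, map_zero, zero_smul]
  let E : AddSubgroup L :=
    { carrier := {e | ∃ μ, τ μ = μ ∧ h (e • x₀) = (ε * (μ * g₀)) • v}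
      zero_mem' := ⟨0, map_zero τ, by simp⟩
      add_mem' := by
        rintro a b ⟨μ, hμ, ha⟩ ⟨ν, hν, hb⟩
        exact ⟨μ + ν, by rw [map_add, hμ, hν], by rw [add_smul, map_add, ha, hb, ← add_smul]; ring_nf⟩
      neg_mem' := by
        rintro a ⟨μ, hμ, ha⟩
        exact ⟨-μ, by rw [map_neg, hμ], by rw [neg_smul, map_neg, ha, ← neg_smul]; ring_nf⟩ }
  have hxe : ∀ e ∈ E, ∃ x ∈ M, ∀ l : L, x (l • x₀) = (l + Tr (p * l) • e) • x₀ := by
    rintro e ⟨μ, hμ, he⟩
    obtain ⟨t, ht, hty⟩ := exists_transv hB hvv (c := ε * μ) (by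
      rw [map_mul, hμ, ← add_mul, hε, zero_mul])
    refine ⟨h⁻¹ * t * h, M.mul_mem (M.mul_mem (M.inv_mem hh) ht) hh, fun l => ?_⟩
    show h.symm (t (h (l • x₀))) = _
    rw [LinearEquiv.symm_apply_eq, hty, ← hφ', hφp, add_smul l, map_add, smul_assoc, LinearEquiv.map_smul, he]
    rw [mul_smul_comm, mul_assoc, ← smul_assoc]
  have hEker : ∀ e ∈ E, Tr (p * e) = 0 := by
    rintro e ⟨μ, hμ, he⟩
    rw [← hφp]
    refine hinj _ _ ?_
    rw [zero_smul, hφ', he, hB.smul_left, hvv, mul_zero]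
  have hEsmul : ∀ s, σ s = s → ∀ e ∈ E, s • e ∈ E := by
    rintro s hs e ⟨μ, hμ, he⟩
    exact ⟨s • μ, by rw [τ_smul (conj hB), hs, hμ], by
      rw [smul_assoc, map_smul, he, ← smul_assoc, smul_mul_assoc, mul_smul_comm]⟩
  have hEind : ∀ θ, σ θ ≠ θ → ∀ e ∈ E, ∀ e' ∈ E, e + θ • e' = 0 → e = 0 ∧ e' = 0 := by
    rintro θ hθ e ⟨μ, hμ, he⟩ e' ⟨ν, hν, he'⟩ h0
    have h1 := congrArg (fun z => h (z • x₀)) h0
    simp only [add_smul, map_add, smul_assoc, map_smul, he, he', zero_smul, map_zero] at h1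
    rw [← smul_assoc, ← add_smul, smul_eq_zero] at h1
    have h2 := h1.resolve_right hv
    rw [← mul_smul_comm, ← mul_add, mul_eq_zero, or_iff_right hε0, ← smul_mul_assoc, ← add_mul,
      mul_eq_zero, or_iff_left hg₀0] at h2
    obtain ⟨h3, h4⟩ := decomp_unique (conj hB) hθ hμ hν h2
    rw [h3] at he
    rw [h4] at he'
    simp [hx] at he he'
    exact ⟨he, he'⟩
  have hEcard : Nat.card (fixd σ) ^ (finrank F L - 1) ≤ Nat.card E := by
    set Q := Nat.card (fixd σ) with hQ
    have hn' : τ (g₀ * τ g₀) = g₀ * τ g₀ := by rw [map_mul, hB.invol, mul_comm]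
    let A : fixd τ →+ fixd σ :=
      { toFun := fun l => ⟨Tr ((l : L) * (g₀ * τ g₀)), by
          show σ _ = _
          rw [← hB.tr, map_mul τ, mem_fixd.1 l.2, hn']⟩
        map_zero' := Subtype.ext (by simp)
        map_add' := fun a b => Subtype.ext (by simp [add_mul]) }
    have h1 := A.ker.card_eq_card_quotient_mul_card_addSubgroup
    have h2 : Nat.card (fixd τ ⧸ A.ker) ≤ Q := by
      rw [Nat.card_congr (QuotientAddGroup.quotientKerEquivRange A).toEquiv]
      exact Nat.card_le_card_of_injective _ Subtype.val_injective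
    have hex : ∀ l : A.ker, ∃ e : E,
        h ((e : L) • x₀) = (ε * (((l : fixd τ) : L) * g₀)) • v := by
      intro l
      have hmem : ((l : fixd τ) : L) * g₀ ∈ C := by
        refine mem_of_perp (conj hB) hCG hdim fun g hg => ?_
        obtain ⟨c, hc⟩ := hg₀sp ⟨g, hg⟩
        rw [← show c • g₀ = g from congrArg Subtype.val hc, τ_smul (conj hB), mul_smul_comm, map_smul,
          mul_assoc, show Tr (((l : fixd τ) : L) * (g₀ * τ g₀)) = 0 from congrArg Subtype.val l.2,
          smul_zero]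
      obtain ⟨z, hz, hzv⟩ := mem_coeffC.1 ((hεC _).2 hmem)
      obtain ⟨e, rfl⟩ := mem_lineF.1 hz
      exact ⟨⟨e, _, (l : fixd τ).2, hzv⟩, hzv⟩
    choose F' hF' using hex
    have h3 : Nat.card A.ker ≤ Nat.card E := Nat.card_le_card_of_injective F' fun a b hab => by
      have h4 := hF' a
      rw [hab, hF' b] at h4
      exact Subtype.ext (Subtype.ext (mul_right_cancel₀ hg₀0
        (mul_left_cancel₀ hε0 (smul_left_injective L hv h4).symm)))
    rw [card_fixd (conj hB), ← Nat.succ_pred_eq_of_pos (hr.pos : 0 < finrank F L), pow_succ'] at h1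
    rw [← Nat.pred_eq_sub_one]
    exact Nat.le_of_mul_le_mul_left (h1 ▸ Nat.mul_le_mul h2 h3)
      (by have := two_le_card_base (conj hB); omega)
  refine exists_square (conj hB) hr (by omega) (Root hB x₀) (fun _ _ => root_add hB hxx)
    (fun _ => root_neg hB hxx) (fun l e q hl hl0 hT => ?_) hp0 E hEker hEsmul hEind hEcard
    (fun e he μ hμ => ?_)
  · have := root_real hB hx hxx hl hl0 hT
    refine (congrArg (Root hB x₀) (LinearMap.ext fun β => ?_)).mp this
    simp only [LinearMap.comp_apply, LinearMap.mulLeft_apply, wedgeT_apply, map_mul, hl, mul_sub,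
      mul_smul_comm]
    ring_nf
  · obtain ⟨x, hxM, hxa⟩ := hxe e he
    exact root_delta hB hxx hxM hxa hμ

end pair

/-- All transvections over the ground field with centre `w` lie in `M`. -/
def Centre (σ : F ≃+* F) (B : V → V → L) (M : Subgroup (V ≃ₗ[F] V)) (w : V) : Prop :=
  Tr (B w w) = 0 ∧ ∀ c : F, c + σ c = 0 → ∃ g ∈ M, ∀ y, g y = y + (c * Tr (B y w)) • w

/-- Outside the semilinear group some isotropic vector is a centre. -/
theorem exists_centre [Finite V] (hr : (finrank F L).Prime) (h35 : finrank F L = 3 ∨ finrank F L = 5)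
    (hm : finrank L V = 2 ∨ 4 ≤ finrank L V) (hns : ¬ M ≤ semiLin F L V) :
    ∃ w : V, w ≠ 0 ∧ B w w = 0 ∧ Centre σ B M w := by
  classical
  obtain ⟨g, hgM, hg⟩ := SetLike.not_le_iff_exists.1 hns
  obtain ⟨x₁, hx₁₁, l₁, hmv⟩ : ∃ x₁ : V, B x₁ x₁ = 0 ∧ ∃ l : L, g (l • x₁) ∉ lineF L (g x₁) (F := F) := by
    by_contra! h
    exact hg (semiLin_of_iso hB (by omega) h)
  have hx₁ : x₁ ≠ 0 := fun h => hmv (by simp [h])
  -- the translate contains an isotropic vector
  set T := (lineF L x₁).map (g : V →ₗ[F] V) with hT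
  obtain ⟨v₁, hv₁T, hv₁, hv₁₁⟩ := exists_iso_mem hB (S := T)
    (by rw [hT, LinearEquiv.finrank_map_eq, finrank_lineF hx₁]) fun y hy z hz => member_iso hB hx₁₁ hgM hy hz
  obtain ⟨h, v, x₀, hp⟩ := exists_isMaxPair (L := L) (P := fun a => B a a = 0) (M := M) (h := g) (v := v₁)
    (x₀ := x₁) ⟨hgM, hv₁₁, hx₁₁, hv₁, hx₁, hv₁T, fun he => hmv (by
      have h1 : g x₁ ∈ lineF L v₁ (F := F) := he ▸ ⟨x₁, self_mem_lineF x₁, rfl⟩
      rw [lineF_eq_of_mem h1 (by simpa using hx₁), ← he]
      exact ⟨l₁ • x₁, mem_lineF.2 ⟨l₁, rfl⟩, rfl⟩)⟩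
  -- a maximal pair with a non-orthogonal member
  obtain ⟨h, v, x₀, hp, u₀, hu₀, hγ⟩ : ∃ h v x₀, IsMaxPair L (fun a => B a a = 0) M h v x₀ ∧
      ∃ u₀ ∈ (lineF L x₀).map (h : V →ₗ[F] V), B u₀ v ≠ 0 := by
    by_cases hc : ∃ u₀ ∈ (lineF L x₀).map (h : V →ₗ[F] V), B u₀ v ≠ 0
    · exact ⟨h, v, x₀, hp, hc⟩
    push Not at hc
    obtain ⟨⟨hh, hvv, hxx, hv, hx, hvS, hSne⟩, hmax⟩ := hp
    set S := (lineF L x₀).map (h : V →ₗ[F] V) with hS
    obtain ⟨u, huS, hu⟩ : ∃ u ∈ S, u ∉ lineF L v (F := F) := by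
      by_contra! hc'
      exact hSne (Submodule.eq_of_le_of_finrank_eq hc' (by
        rw [hS, LinearEquiv.finrank_map_eq, finrank_lineF hv, finrank_lineF hx]))
    obtain ⟨e, hee, hev, hve⟩ := exists_partner hB hv hvv
    set W : Submodule L V := LinearMap.ker (bFun hB v) ⊓ LinearMap.ker (bFun hB e) with hW
    have hmemW : ∀ y, y ∈ W ↔ B y v = 0 ∧ B y e = 0 := fun y => Iff.rfl
    set u' := u - B u e • v with hu'
    have hu'W : u' ∈ W := (hmemW _).2 ⟨by rw [hu', sub_left hB, hB.smul_left, hvv, hc u huS]; simp,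
      by rw [hu', sub_left hB, hB.smul_left, hve, mul_one, sub_self]⟩
    have hu'0 : u' ≠ 0 := fun h0 => hu (mem_lineF.2 ⟨B u e, (sub_eq_zero.1 h0).symm⟩)
    have hgood : Good B W := by
      intro y hy hy0
      obtain ⟨hyv, hye⟩ := (hmemW y).1 hy
      obtain ⟨w, hw⟩ := hB.nondeg y hy0
      refine ⟨w - B w e • v - B w v • e, (hmemW _).2 ⟨?_, ?_⟩, ?_⟩
      · simp [sub_left hB, hB.smul_left, hvv, hev]
      · simp [sub_left hB, hB.smul_left, hee, hve]
      · simpa [sub_right hB, smul_right hB, hyv, hye] using hw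
    have hfin : finrank L V ≤ finrank L W + 2 := by
      have h1 := Submodule.finrank_sup_add_finrank_inf_eq (LinearMap.ker (bFun hB v)) (LinearMap.ker (bFun hB e))
      have h2 := Submodule.finrank_le (LinearMap.ker (bFun hB v) ⊔ LinearMap.ker (bFun hB e))
      have h3 := LinearMap.finrank_range_add_finrank_ker (bFun hB v)
      have h4 := LinearMap.finrank_range_add_finrank_ker (bFun hB e)
      have h5 := Submodule.finrank_le (LinearMap.range (bFun hB v))
      have h6 := Submodule.finrank_le (LinearMap.range (bFun hB e))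
      rw [finrank_self] at h5 h6
      rw [← hW] at h1
      omega
    have hm4 : 4 ≤ finrank L V := by
      rcases hm with h2 | h4
      · exfalso
        have h1 : Submodule.span L {v, e} = ⊤ := by
          have hli : LinearIndependent L ![v, e] := LinearIndependent.pair_iff.2 fun s t hst => by
            have e1 := congrArg (fun z => B z v) hst
            have e2 := congrArg (fun z => B z e) hst
            simp only [hB.add_left, hB.smul_left, hvv, hev, hve, hee, zero_left hB, mul_zero, mul_one,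
              zero_add, add_zero] at e1 e2
            exact ⟨e2, e1⟩
          have := hli.span_eq_top_of_card_eq_finrank (by simp [h2])
          rwa [Matrix.range_cons, Matrix.range_cons, Matrix.range_empty, Set.union_empty,
            Set.singleton_union] at this
        obtain ⟨s, t, hst⟩ := Submodule.mem_span_pair.1 (h1 ▸ Submodule.mem_top : u' ∈ Submodule.span L {v, e})
        obtain ⟨e1, e2⟩ := (hmemW _).1 hu'W
        rw [← hst] at e1 e2
        simp only [hB.add_left, hB.smul_left, hvv, hev, hve, hee, mul_zero, mul_one, zero_add, add_zero] at e1 e2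
        exact hu'0 (by rw [← hst, e1, e2, zero_smul, zero_smul, add_zero])
      · exact h4
    obtain ⟨w, hwW, hww, huw'⟩ := exists_iso_sep hB hgood (by omega) hu'W hu'0
    obtain ⟨hwv, -⟩ := (hmemW w).1 hwW
    have hvw : B v w = 0 := orth_comm hB hwv
    have huw : B u w ≠ 0 := by
      intro h0
      exact huw' (by rw [hu', sub_left hB, hB.smul_left, hvw, h0, mul_zero, sub_zero])
    obtain ⟨f, hf, hf'⟩ := exists_skew (conj hB)
    obtain ⟨l, hl, hl'⟩ := exists_real_trace (conj hB) (n := B u w * B w u)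
      (mul_ne_zero huw fun h0 => huw (orth_comm hB h0))
    obtain ⟨t, ht, hty⟩ := exists_transv hB hww (c := f • l) (by
      rw [τ_smul (conj hB), hl, ← add_smul, hf', zero_smul])
    have htu : Tr (B (t u) u) ≠ 0 := by
      rw [hty, hB.add_left, map_add, member_iso hB hxx hh huS huS, zero_add, hB.smul_left, mul_assoc,
        smul_mul_assoc, map_smul, smul_eq_mul]
      exact mul_ne_zero hf hl'
    have hne : S.map (t : V →ₗ[F] V) ≠ S := fun he =>
      htu (member_iso hB hxx hh (show t u ∈ S from he ▸ ⟨u, huS, rfl⟩) huS)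
    have hfix : ∀ y ∈ lineF L v (F := F), t y = y := fun y hy => by
      obtain ⟨k, rfl⟩ := mem_lineF.1 hy
      rw [hty, hB.smul_left, hvw]; simp
    obtain ⟨hpair, hdim, -⟩ := IsMaxPair.meet_le ⟨⟨hh, hvv, hxx, hv, hx, hvS, hSne⟩, hmax⟩
      (isoP_smul hB) ht hv hvS ⟨v, hvS, hfix v (self_mem_lineF v)⟩ hne
    refine ⟨h⁻¹ * t * h, h.symm v, x₀, ⟨hpair, fun a b c hp' => (hmax a b c hp').trans ?_⟩,
      h.symm (t u), ?_, ?_⟩
    · rw [hdim]
      exact Submodule.finrank_mono fun y hy => ⟨⟨y, hy.2, hfix y hy.1⟩, hy.2⟩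
    · obtain ⟨z, hz, hzu⟩ := huS
      exact ⟨z, hz, by rw [← hzu]; rfl⟩
    · intro h0
      obtain ⟨z, hz, hzu⟩ := huS
      obtain ⟨z', hz', hzv⟩ := hvS
      obtain ⟨k, rfl⟩ := mem_lineF.1 hz
      obtain ⟨k', rfl⟩ := mem_lineF.1 hz'
      have hk' : k' ≠ 0 := fun h0' => hv (by rw [← hzv, h0']; simp)
      have hv' : h.symm v = k' • x₀ := by rw [LinearEquiv.symm_apply_eq]; exact hzv.symm
      rw [hv', smul_right hB, mul_eq_zero] at h0
      have h1 := hB.pres h hh (h.symm (t u)) (k • x₀)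
      rw [h.apply_symm_apply, show h (k • x₀) = u from hzu, smul_right hB,
        h0.resolve_left (by simpa using hk'), mul_zero, map_zero] at h1
      exact htu h1
  obtain ⟨e, he, hroot⟩ := exists_root_of_pair hB hr h35 hp hu₀ hγ
  have hxx : B x₀ x₀ = 0 := hp.1.2.2.1
  refine ⟨e • x₀, smul_ne_zero he hp.1.2.2.2.2.1, isoP_smul hB e x₀ hxx, ?_, fun c hc => ?_⟩
  · rw [isoP_smul hB e x₀ hxx, map_zero]
  obtain ⟨k, hk, hky⟩ := hroot c hc
  refine ⟨k, hk, fun y => ?_⟩
  rw [hky, rootMap_apply, sqT_apply, bFun_apply, smul_right hB, smul_assoc]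

end CfsgLib.C3Unit91
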