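import Cfsg.Agent.C3Unit91.Pair

/-!
From one isotropic centre to all centres: the isometries over the extension field are transitive on
anisotropic vectors of a given value.
-/

set_option autoImplicit false
set_option linter.unusedSectionVars false
set_option linter.style.haveILetI false

namespace CfsgLib.C3Unit91

open Module CfsgLib.C3Max CfsgLib.FieldExtMax

variable {F L V : Type*} [Field F] [Field L] [Algebra F L] [AddCommGroup V] [Module F V]
  [Module L V] [IsScalarTower F L V] [Finite L] [FiniteDimensional F L] [IsGalois F L]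
  [FiniteDimensional F V] [FiniteDimensional L V]

local notation "Tr" => Algebra.trace F L

variable {σ : F ≃+* F} {τ : L ≃+* L} {B : V → V → L} {M : Subgroup (V ≃ₗ[F] V)} (hB : Over σ τ B M)
include hB

lemma trace_herm (x y : V) : Tr (B y x) = σ (Tr (B x y)) := by rw [hB.herm, hB.tr]

lemma tr_smul_right (c : F) (x y : V) : Tr (B x (c • y)) = σ c * Tr (B x y) := by
  rw [← algebraMap_smul L c y, smul_right hB, hB.base, ← Algebra.smul_def, map_smul, smul_eq_mul]

lemma tr_smul_left (c : F) (x y : V) : Tr (B (c • x) y) = c * Tr (B x y) := by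
  rw [← algebraMap_smul L c x, hB.smul_left, ← Algebra.smul_def, map_smul, smul_eq_mul]

lemma centre_smul {w : V} (h : Centre σ B M w) (s : F) : Centre σ B M (s • w) := by
  refine ⟨by rw [tr_smul_left hB, tr_smul_right hB, h.1, mul_zero, mul_zero], fun c hc => ?_⟩
  obtain ⟨g, hg, hgy⟩ := h.2 (c * (s * σ s)) (by
    rw [map_mul, map_mul, hB.inv]; linear_combination (s * σ s) * hc)
  refine ⟨g, hg, fun y => ?_⟩
  rw [hgy, tr_smul_right hB, smul_smul]
  congr 2; ring

lemma centre_image {w : V} (h : Centre σ B M w) {g : V ≃ₗ[F] V} (hg : g ∈ M) : Centre σ B M (g w) := by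
  refine ⟨by rw [hB.pres g hg]; exact h.1, fun c hc => ?_⟩
  obtain ⟨t, ht, hty⟩ := h.2 c hc
  refine ⟨g * t * g⁻¹, M.mul_mem (M.mul_mem hg ht) (M.inv_mem hg), fun y => ?_⟩
  show g (t (g.symm y)) = _
  rw [hty, map_add, g.apply_symm_apply, LinearEquiv.map_smul]
  congr 3
  conv_rhs => rw [← g.apply_symm_apply y, hB.pres g hg]

/-- Isotropic vectors on the line through two non-orthogonal centres are centres. -/
lemma centre_line {v w : V} (hv : Centre σ B M v) (hw : Centre σ B M w) (h : Tr (B v w) ≠ 0) {a b : F}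
    (hy : Tr (B (a • v + b • w) (a • v + b • w)) = 0) : Centre σ B M (a • v + b • w) := by
  by_cases ha : a = 0
  · rw [ha, zero_smul, zero_add]; exact centre_smul hB hw b
  set t := b / a with ht
  have hy' : a • v + b • w = a • (v + t • w) := by rw [smul_add, smul_smul, ht, mul_div_cancel₀ _ ha]
  have hiso : Tr (B (v + t • w) (v + t • w)) = 0 := by
    rw [hy', tr_smul_left hB, tr_smul_right hB] at hy
    simpa [ha] using hy
  rw [hB.add_left, add_right hB, add_right hB, map_add, map_add, map_add, tr_smul_left hB, tr_smul_left hB,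
    tr_smul_right hB, tr_smul_right hB, hv.1, hw.1, trace_herm hB v w] at hiso
  set c := t / Tr (B v w) with hc
  have hcz : c + σ c = 0 := by
    rw [hc, map_div₀, div_add_div _ _ h (by simpa using h), div_eq_zero_iff]
    exact Or.inl (by linear_combination hiso)
  obtain ⟨g, hg, hgy⟩ := hw.2 c hcz
  have h1 := centre_image hB hv hg
  rw [hgy, hc, div_mul_cancel₀ _ h] at h1
  rw [hy']
  exact centre_smul hB h1 a

lemma exists_aniso {W : Submodule L V} (hW : Good B W) (h : W ≠ ⊥) : ∃ y ∈ W, B y y ≠ 0 := by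
  obtain ⟨x, hx, hx0⟩ := Submodule.exists_mem_ne_zero_of_ne_bot h
  by_contra! hall
  obtain ⟨w, hw, hxw⟩ := hW x hx hx0
  have hxw' : B w x ≠ 0 := fun e => hxw (orth_comm hB e)
  obtain ⟨t, ht⟩ := exists_trace_sum hB (r := 1) (map_one τ)
  have h1 := hall (x + (t / B w x) • w) (W.add_mem hx (W.smul_mem _ hw))
  rw [norm_add_smul hB, hall x hx, hall w hw, mul_zero, add_zero, zero_add, div_mul_cancel₀ _ hxw',
    hB.herm w x, ← map_mul, div_mul_cancel₀ _ hxw', add_comm, ht] at h1
  exact one_ne_zero h1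

lemma exists_orth_aniso (hm : 2 ≤ finrank L V) {y : V} (hy : B y y ≠ 0) :
    ∃ z, B z y = 0 ∧ B z z ≠ 0 := by
  have hW : Good B (LinearMap.ker (bFun hB y)) := by
    intro x hx hx0
    obtain ⟨w, hw⟩ := hB.nondeg x hx0
    refine ⟨w - (B w y / B y y) • y, by simp [sub_left hB, hB.smul_left, div_mul_cancel₀ _ hy], ?_⟩
    rw [sub_right hB, smul_right hB, show B x y = 0 from hx, mul_zero, sub_zero]
    exact hw
  obtain ⟨z, hz, hz'⟩ := exists_aniso hB hW fun h0 => by
    have h1 := LinearMap.finrank_range_add_finrank_ker (bFun hB y)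
    have h2 := Submodule.finrank_le (LinearMap.range (bFun hB y))
    rw [h0, finrank_bot] at h1
    rw [finrank_self] at h2
    omega
  exact ⟨z, hz, hz'⟩

/-- A pair of quasi-reflections with inverse determinants. -/
lemma dil_pair_mem {z z' : V} (hz : B z z ≠ 0) (hz' : B z' z' ≠ 0) {c : L} (hc : c * τ c = 1) :
    ∃ g ∈ M, (∀ x y, B (g x) (g y) = B x y) ∧
      ∀ y, B y z' = 0 → g y = y + ((c - 1) / B z z * B y z) • z := by
  have hc0 : c ≠ 0 := fun h => by rw [h, zero_mul] at hc; exact zero_ne_one hc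
  have hn' : c⁻¹ * τ c⁻¹ = 1 := by rw [map_inv₀, ← mul_inv, hc, inv_one]
  set e := (dil hB hz' (inv_ne_zero hc0)).trans (dil hB hz hc0) with he
  have hiso : ∀ x y, B (e x) (e y) = B x y := fun x y => by
    simp only [he, LinearEquiv.trans_apply]
    rw [dil_iso hB hz hc0 hc, dil_iso hB hz' (inv_ne_zero hc0) hn']
  refine ⟨e.restrictScalars F, hB.lin e hiso ?_, fun x y => hiso x y, fun y hy => ?_⟩
  · rw [he, LinearEquiv.coe_trans, LinearMap.det_comp, dil_det hB, dil_det hB, mul_inv_cancel₀ hc0, map_one]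
  · show dil hB hz hc0 (dil hB hz' (inv_ne_zero hc0) y) = _
    rw [dil_apply hB hz' _ y, hy, mul_zero, zero_smul, add_zero, dil_apply]

lemma exists_norm_one : ∃ k : L, k * τ k = 1 ∧ k ≠ 1 := by
  obtain ⟨θ, hθ⟩ := hB.ne
  have hne : algebraMap F L (σ θ) ≠ 0 := by
    intro h0
    have h1 : σ θ = 0 := by simpa using h0
    have h2 : θ = 0 := σ.injective (h1.trans (map_zero σ).symm)
    exact hθ (h1.trans h2.symm)
  refine ⟨algebraMap F L θ / algebraMap F L (σ θ), ?_, fun h => hθ ?_⟩
  · rw [map_div₀, hB.base, hB.base, hB.inv, div_mul_div_comm, mul_comm, div_self]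
    refine mul_ne_zero hne ?_
    intro h0
    exact hθ (by rw [show θ = 0 by simpa using h0, map_zero])
  · exact ((algebraMap F L).injective ((div_eq_one_iff_eq hne).1 h)).symm

/-- Anisotropic vectors of one value are conjugate. -/
lemma exists_map (hm : 2 ≤ finrank L V) {y z : V} (hy : B y y ≠ 0) (hyz : B z z = B y y) :
    ∃ g ∈ M, g y = z := by
  have hstep : ∀ y z : V, B y y ≠ 0 → B z z = B y y → B y z - B y y ≠ 0 → ∃ g ∈ M, g y = z := by
    intro y z hy hyz hw
    set w := B y z - B y y with hw'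
    have hyd : B y (z - y) = w := by rw [sub_right hB]
    have hdd : B (z - y) (z - y) = -(w + τ w) := by
      rw [sub_left hB, sub_right hB, sub_right hB, hyz, hB.herm y z, hw', map_sub, self_fixed hB]
      ring
    by_cases hd : B (z - y) (z - y) = 0
    · rw [hd, eq_comm, neg_eq_zero] at hdd
      obtain ⟨g, hg, hgy⟩ := exists_transv hB hd (c := w⁻¹) (by
        rw [map_inv₀, eq_neg_of_add_eq_zero_right hdd, inv_neg, add_neg_cancel])
      exact ⟨g, hg, by rw [hgy, hyd, inv_mul_cancel₀ hw, one_smul, add_sub_cancel]⟩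
    obtain ⟨z', hz'y, hz'⟩ := exists_orth_aniso hB hm hy
    have hw0 : τ w ≠ 0 := by simpa using hw
    obtain ⟨g, hg, -, hgy⟩ := dil_pair_mem hB hd hz' (c := -τ w / w) (by
      rw [map_div₀, map_neg, hB.invol]; field_simp)
    refine ⟨g, hg, ?_⟩
    rw [hgy y (orth_comm hB hz'y), hyd, show (-τ w / w - 1) / B (z - y) (z - y) * w = 1 by
      rw [div_mul_eq_mul_div, div_eq_one_iff_eq hd, hdd]
      field_simp
      ring, one_smul, add_sub_cancel]
  by_cases hw : B y z - B y y = 0
  · obtain ⟨k, hk, hk1⟩ := exists_norm_one hB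
    have hkk : B (k • y) (k • y) = B y y := by rw [hB.smul_left, smul_right hB, ← mul_assoc, hk, one_mul]
    obtain ⟨g, hg, hgy⟩ := hstep y (k • y) hy hkk (by
      rw [smul_right hB, ← sub_one_mul]
      refine mul_ne_zero (sub_ne_zero.2 fun h => hk1 ?_) hy
      rw [← hB.invol k, h, map_one])
    obtain ⟨g', hg', hgy'⟩ := hstep (k • y) z (by rw [hkk]; exact hy) (by rw [hkk, hyz]) (by
      rw [hkk, hB.smul_left, sub_eq_zero.1 hw, ← sub_one_mul]
      exact mul_ne_zero (sub_ne_zero.2 hk1) hy)
    exact ⟨g' * g, M.mul_mem hg' hg, by rw [LinearEquiv.mul_apply, hgy, hgy']⟩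
  · exact hstep y z hy hyz hw

/-- A quasi-reflection of determinant of norm one moving an isotropic centre. -/
lemma exists_moved (hr : (finrank F L).Prime)
    (hm : (finrank L V = 2 ∧ 2 * finrank F L * Nat.card (fixd σ) < Nat.card (fixd σ) ^ finrank F L) ∨
      4 ≤ finrank L V) {v b : V}
    (hvv : B v v = 0) (hbb : B b b = 0) (hbv : B b v = 1) (hvb : B v b = 1) :
    ∃ l : L, l * τ l = 1 ∧ l ∉ (algebraMap F L).range ∧ ∀ ζ : L, ζ + τ ζ ≠ 0 →
      ∃ g ∈ M, B (g v) (g v) = 0 ∧ g v = v + ((l - 1) / (ζ + τ ζ) * τ ζ) • (v + ζ • b) := by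
  haveI : Finite F := Finite.of_injective _ (algebraMap F L).injective
  obtain ⟨θ, hθ⟩ := hB.ne
  set Q := Nat.card (fixd σ) with hQ
  have hQ2 : 2 ≤ Q := two_le_card_base (conj hB)
  have hz : ∀ ζ : L, B (v + ζ • b) (v + ζ • b) = ζ + τ ζ := fun ζ => by
    rw [norm_add_smul hB, hvv, hbb, hvb, hbv]; ring
  have hbv' : ∀ ζ : L, B v (v + ζ • b) = τ ζ := fun ζ => by
    rw [add_right hB, smul_right hB, hvv, hvb, zero_add, mul_one]
  set t : L := algebraMap F L θ with ht
  have htt : τ t = algebraMap F L (σ θ) := hB.base θ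
  have hden : ∀ μ, τ μ = μ → μ + τ t ≠ 0 := fun μ hμ h0 => by
    have h1 := congrArg τ h0
    rw [map_add, hB.invol, hμ, map_zero] at h1
    exact hθ ((algebraMap F L).injective (by rw [← htt]; linear_combination h0 - h1))
  set lam : L → L := fun μ => (μ + t) / (μ + τ t) with hlam
  have hone : ∀ μ, τ μ = μ → lam μ * τ (lam μ) = 1 := fun μ hμ => by
    have h1 := hden μ hμ
    have h2 : μ + t ≠ 0 := fun h0 => h1 (by
      have := congrArg τ h0
      rwa [map_add, hμ, map_zero] at this)
    simp only [hlam, map_div₀, map_add, hμ, hB.invol]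
    field_simp
  rcases hm with ⟨h2, h5⟩ | h4
  · -- determinant of norm one
    obtain ⟨g, hg1⟩ : ∃ g : L ≃ₐ[F] L, g ≠ 1 := by
      haveI : Nontrivial (L ≃ₐ[F] L) := Finite.one_lt_card_iff_nontrivial.1 (by
        rw [IsGalois.card_aut_eq_finrank F L]; exact hr.one_lt)
      exact exists_ne 1
    have hfix : ∀ x, g x = x → x ∈ (algebraMap F L).range := by
      intro x hx
      by_contra hxF
      exact hg1 (AlgEquiv.coe_algHom_injective (AlgHom.ext_of_adjoin_eq_top (adjoin_eq_top hr hxF)
        (by rintro y (rfl : y = x); simpa using hx)))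
    obtain ⟨μ, hμ, hμF⟩ : ∃ μ, τ μ = μ ∧ lam μ ^ finrank F L ∉ (algebraMap F L).range := by
      classical
      by_contra! h
      letI := Fintype.ofFinite L
      letI := Fintype.ofFinite F
      let Rts : F → Finset L := fun c => (Polynomial.nthRoots (finrank F L) (algebraMap F L c)).toFinset
      let U : Finset F := Finset.univ.filter fun c => c * σ c = 1
      have hU : U.card ≤ 2 * Q := by
        have h1 : U.card ≤ 2 * (U.image fun c => c + σ c).card := by
          refine Finset.card_le_mul_card_image U 2 fun s hs => ?_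
          obtain ⟨c, hc, rfl⟩ := Finset.mem_image.1 hs
          refine (Finset.card_le_card (t := {c, σ c}) fun d hd => ?_).trans Finset.card_le_two
          obtain ⟨hd1, hd2⟩ := Finset.mem_filter.1 hd
          have e1 : c * σ c = 1 := (Finset.mem_filter.1 hc).2
          have e2 : d * σ d = 1 := (Finset.mem_filter.1 hd1).2
          have e3 : (d - c) * (d - σ c) = 0 := by linear_combination d * hd2 + e1 - e2
          rcases mul_eq_zero.1 e3 with e | e
          · rw [sub_eq_zero.1 e]; exact Finset.mem_insert_self _ _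
          · rw [sub_eq_zero.1 e]; exact Finset.mem_insert_of_mem (Finset.mem_singleton_self _)
        refine h1.trans (Nat.mul_le_mul le_rfl ?_)
        rw [← Nat.card_eq_finsetCard, hQ]
        refine Nat.card_le_card_of_injective (fun x => (⟨(x : F), ?_⟩ : fixd σ)) fun x y hxy =>
          Subtype.ext (congrArg (fun z : fixd σ => (z : F)) hxy :)
        obtain ⟨c, -, hc⟩ := Finset.mem_image.1 x.2
        show σ _ = _
        rw [← hc, map_add, hB.inv, add_comm]
      have hmem : ∀ μ : fixd τ, lam μ ∈ U.biUnion Rts := fun μ => by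
        obtain ⟨c, hc⟩ := h μ μ.2
        refine Finset.mem_biUnion.2 ⟨c, Finset.mem_filter.2 ⟨Finset.mem_univ _, ?_⟩,
          Multiset.mem_toFinset.2 ((Polynomial.mem_nthRoots hr.pos).2 hc.symm)⟩
        refine (algebraMap F L).injective ?_
        rw [map_mul, ← hB.base, hc, map_pow, ← mul_pow, hone μ μ.2, one_pow, map_one]
      have hinj : Function.Injective fun μ : fixd τ => (⟨lam μ, hmem μ⟩ : U.biUnion Rts) := by
        intro a b hab
        have h1 := congrArg Subtype.val hab
        simp only [hlam] at h1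
        rw [div_eq_div_iff (hden a a.2) (hden b b.2)] at h1
        have h2 : ((a : L) - b) * (τ t - t) = 0 := by linear_combination h1
        exact Subtype.ext (sub_eq_zero.1 ((mul_eq_zero.1 h2).resolve_right
          (sub_ne_zero.2 fun h => hθ ((algebraMap F L).injective (htt ▸ h)))))
      have h1 := Nat.card_le_card_of_injective _ hinj
      rw [Nat.card_eq_finsetCard, card_fixd (conj hB), ← hQ] at h1
      have h3 : (U.biUnion Rts).card ≤ U.card * finrank F L := by
        refine Finset.card_biUnion_le_card_mul _ _ _ fun c _ => ?_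
        exact (Multiset.toFinset_card_le _).trans (Polynomial.card_nthRoots _ _)
      have h4 := (h1.trans h3).trans (Nat.mul_le_mul hU le_rfl)
      exact absurd h4 (not_le.2 (by rw [mul_right_comm]; exact h5))
    obtain ⟨x, hx⟩ : ∃ x, x = lam μ := ⟨_, rfl⟩
    have hx1 : x * τ x = 1 := hx ▸ hone μ hμ
    have hx0 : x ≠ 0 := fun h => by rw [h, zero_mul] at hx1; exact zero_ne_one hx1
    have hgx : g x ≠ 0 := by simpa using hx0
    have hgτ : ∀ y, τ (g y) = g (τ y) := by
      intro y
      letI := Fintype.ofFinite L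
      obtain ⟨p, hp⟩ := CharP.exists L
      haveI := hp
      haveI : Fact p.Prime := ⟨(CharP.char_is_prime_or_zero L p).resolve_right fun h => by
        subst h
        haveI := CharP.charP_to_charZero L
        exact not_finite L⟩
      letI : Algebra (ZMod p) L := ZMod.algebra L p
      obtain ⟨i, hi⟩ := (FiniteField.bijective_frobeniusAlgEquivOfAlgebraic_pow (ZMod p) L).2
        (AlgEquiv.ofRingEquiv (f := τ) fun c => RingHom.congr_fun (RingHom.ext_zmod
          ((τ : L →+* L).comp (algebraMap (ZMod p) L)) (algebraMap (ZMod p) L)) c)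
      have hpow : ∀ z, τ z = z ^ p ^ (i : ℕ) := fun z => by
        have h2 := congrArg (fun e : L ≃ₐ[ZMod p] L => e z) hi
        simp only [AlgEquiv.coe_pow, FiniteField.coe_frobeniusAlgEquivOfAlgebraic_iterate,
          ← Nat.card_eq_fintype_card, Nat.card_zmod] at h2
        exact h2.symm
      rw [hpow, hpow, map_pow]
    have hN1 : Algebra.norm F (x / g x) = 1 := by
      have h1 : Algebra.norm F (x / g x) * Algebra.norm F (g x) = Algebra.norm F x := by
        rw [← map_mul, div_mul_cancel₀ _ hgx]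
      rw [Algebra.norm_eq_of_algEquiv g x] at h1
      exact mul_right_cancel₀ (Algebra.norm_ne_zero_iff.2 hx0) (h1.trans (one_mul _).symm)
    refine ⟨x / g x, ?_, fun ⟨c, hc⟩ => hμF ?_, fun ζ hζ => ?_⟩
    · rw [map_div₀, hgτ, div_mul_div_comm, hx1, ← map_mul, hx1, map_one, div_one]
    · have hN : c ^ finrank F L = 1 := by
        rw [← Algebra.norm_algebraMap (S := L), hc, hN1]
      refine hfix _ ?_
      have h1 : x = algebraMap F L c * g x := by rw [hc, div_mul_cancel₀ _ hgx]
      rw [map_pow, ← hx]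
      calc g x ^ finrank F L = (algebraMap F L c * g x) ^ finrank F L := by
            rw [mul_pow, ← map_pow (algebraMap F L), hN, map_one, one_mul]
        _ = x ^ finrank F L := by rw [← h1]
    · have hn : (x / g x) * τ (x / g x) = 1 := by
        rw [map_div₀, hgτ, div_mul_div_comm, hx1, ← map_mul, hx1, map_one, div_one]
      have hne : x / g x ≠ 0 := div_ne_zero hx0 hgx
      have hzz : B (v + ζ • b) (v + ζ • b) ≠ 0 := by rw [hz]; exact hζ
      refine ⟨(dil hB hzz hne).restrictScalars F,
        hB.lin _ (fun a c => dil_iso hB hzz hne hn a c) ?_, (dil_iso hB hzz hne hn v v).trans hvv, ?_⟩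
      · rw [dil_det hB, hN1]
      · show dil hB hzz hne v = _
        rw [dil_apply, hz, hbv']
  · obtain ⟨μ, hμ, hμF⟩ : ∃ μ, τ μ = μ ∧ μ ∉ (algebraMap F L).range := by
      by_contra! h
      have h1 : Nat.card (fixd τ) ≤ Nat.card (fixd σ) := by
        refine Nat.card_le_card_of_surjective (fun c : fixd σ => (⟨algebraMap F L c, by
          show τ _ = _
          rw [hB.base, mem_fixd.1 c.2]⟩ : fixd τ)) ?_
        rintro ⟨l, hl⟩
        obtain ⟨c, hc⟩ := h l hl
        exact ⟨⟨c, (algebraMap F L).injective (by rw [← hB.base, hc]; exact hl)⟩, Subtype.ext hc⟩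
      rw [card_fixd (conj hB)] at h1
      have h3 : Q ^ 2 ≤ Q ^ finrank F L := Nat.pow_le_pow_right (by omega) hr.two_le
      rw [sq] at h3
      nlinarith
    refine ⟨lam μ, hone μ hμ, fun ⟨c, hc⟩ => hμF ?_, fun ζ hζ => ?_⟩
    · have h1 := hden μ hμ
      simp only [hlam] at hc
      rw [eq_div_iff h1, ht, hB.base] at hc
      have hc1 : (1 : F) - c ≠ 0 := by
        intro h0
        rw [← sub_eq_zero.1 h0, map_one, one_mul] at hc
        exact hθ ((algebraMap F L).injective (add_left_cancel hc))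
      refine ⟨(c * σ θ - θ) / (1 - c), ?_⟩
      have hc1' : (1 : L) - algebraMap F L c ≠ 0 := by
        rw [← map_one (algebraMap F L), ← map_sub]; exact (map_ne_zero (algebraMap F L)).2 hc1
      rw [map_div₀, map_sub, map_sub, map_mul, map_one, div_eq_iff hc1']
      linear_combination hc
    · -- a compensating vector orthogonal to the pair
      set W : Submodule L V := LinearMap.ker (bFun hB v) ⊓ LinearMap.ker (bFun hB b) with hW
      have hgood : Good B W := by
        intro y hy hy0
        obtain ⟨hyv, hyb⟩ : B y v = 0 ∧ B y b = 0 := hy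
        obtain ⟨w, hw⟩ := hB.nondeg y hy0
        refine ⟨w - B w b • v - B w v • b, ⟨?_, ?_⟩, ?_⟩
        · simp [sub_left hB, hB.smul_left, hvv, hbv]
        · simp [sub_left hB, hB.smul_left, hbb, hvb]
        · simpa [sub_right hB, smul_right hB, hyv, hyb] using hw
      obtain ⟨z', hz'W, hz'⟩ := exists_aniso hB hgood fun h0 => by
        have h1 := Submodule.finrank_sup_add_finrank_inf_eq (LinearMap.ker (bFun hB v))
          (LinearMap.ker (bFun hB b))
        have h2 := Submodule.finrank_le (LinearMap.ker (bFun hB v) ⊔ LinearMap.ker (bFun hB b))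
        have h3 := LinearMap.finrank_range_add_finrank_ker (bFun hB v)
        have h4 := LinearMap.finrank_range_add_finrank_ker (bFun hB b)
        have h5 := Submodule.finrank_le (LinearMap.range (bFun hB v))
        have h6 := Submodule.finrank_le (LinearMap.range (bFun hB b))
        rw [← hW, h0, finrank_bot] at h1
        rw [finrank_self] at h5 h6
        omega
      obtain ⟨g, hg, hgB, hgy⟩ := dil_pair_mem hB (z := v + ζ • b) (by rw [hz]; exact hζ) hz' (hone μ hμ)
      exact ⟨g, hg, (hgB v v).trans hvv, by rw [hgy v (orth_comm hB hz'W.1), hz, hbv']⟩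

/-- One isotropic centre gives an anisotropic one. -/
lemma exists_aniso_centre (hr : (finrank F L).Prime)
    (hm : (finrank L V = 2 ∧ 2 * finrank F L * Nat.card (fixd σ) < Nat.card (fixd σ) ^ finrank F L) ∨
      4 ≤ finrank L V) {v : V} (hv : v ≠ 0)
    (hvv : B v v = 0) (hc : Centre σ B M v) : ∃ z, Centre σ B M z ∧ B z z ≠ 0 := by
  obtain ⟨b, hbb, hbv, hvb⟩ := exists_partner hB hv hvv
  obtain ⟨l, hl, hlF, hg⟩ := exists_moved hB hr hm hvv hbb hbv hvb
  obtain ⟨z₀, hz₀⟩ := exists_trace_sum hB (r := 1) (map_one τ)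
  have hz00 : z₀ ≠ 0 := fun h => by rw [h, map_zero, add_zero] at hz₀; exact zero_ne_one hz₀
  have hl1 : τ l - 1 ≠ 0 := sub_ne_zero.2 fun h => hlF ⟨1, by
    rw [map_one]; rw [← hB.invol l, h, map_one]⟩
  obtain ⟨x, hx, hx'⟩ := exists_real_trace (conj hB) (n := z₀ * τ z₀ * (τ l - 1))
    (mul_ne_zero (mul_ne_zero hz00 (by simpa using hz00)) hl1)
  have hx0 : x ≠ 0 := fun h => hx' (by rw [h, zero_mul, map_zero])
  have hsum : x * z₀ + τ (x * z₀) = x := by rw [map_mul, hx, ← mul_add, hz₀, mul_one]
  obtain ⟨g, hgM, hgg, hgv⟩ := hg (x * z₀) (by rw [hsum]; exact hx0)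
  have hbeta : B v (g v) = x * (z₀ * τ z₀ * (τ l - 1)) := by
    rw [hgv, hsum, add_right hB, smul_right hB, add_right hB, smul_right hB, hvv, hvb, map_mul, map_mul,
      map_mul, map_div₀, map_sub, map_one, hB.invol, hx]
    simp only [hB.invol]
    field_simp
    ring
  set β := B v (g v) with hβ
  have hφ : Tr β ≠ 0 := by rw [hbeta]; exact hx'
  obtain ⟨f, hf, hf'⟩ := exists_skew (conj hB)
  set t := f / σ (Tr β) with ht
  have hσφ : σ (Tr β) ≠ 0 := by simpa using hφ
  have hgc := centre_image hB hc hgM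
  have h1 : σ t * Tr β = -f := by
    rw [ht, map_div₀, hB.inv, div_mul_cancel₀ _ hφ, eq_neg_of_add_eq_zero_right hf']
  have h2 : t * σ (Tr β) = f := div_mul_cancel₀ _ hσφ
  have hiso : Tr (B ((1 : F) • v + t • g v) ((1 : F) • v + t • g v)) = 0 := by
    rw [hB.add_left, add_right hB, add_right hB, map_add, map_add, map_add, tr_smul_left hB, tr_smul_left hB,
      tr_smul_left hB, tr_smul_left hB, tr_smul_right hB, tr_smul_right hB, tr_smul_right hB, tr_smul_right hB,
      hvv, hgg, trace_herm hB v (g v), map_one, map_zero]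
    linear_combination h1 + h2
  refine ⟨_, centre_line hB hc hgc hφ hiso, fun h0 => hlF ?_⟩
  have h3 : algebraMap F L (σ t) * β + algebraMap F L t * τ β = 0 := by
    rw [one_smul, ← algebraMap_smul L t (g v), norm_add_smul hB, hvv, hgg, mul_zero, add_zero, zero_add,
      hB.base] at h0
    rw [hβ, ← hB.herm v (g v)]
    linear_combination h0
  have ht0 : t ≠ 0 := div_ne_zero hf hσφ
  have h4 : x * (z₀ * τ z₀) * ((τ l - 1) * algebraMap F L (σ t) + (l - 1) * algebraMap F L t) = 0 := by
    rw [hbeta, map_mul τ x, map_mul τ, map_mul τ, hB.invol, map_sub, map_one, hB.invol, hx] at h3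
    linear_combination h3
  have h5 := (mul_eq_zero.1 h4).resolve_left (mul_ne_zero hx0 (mul_ne_zero hz00 (by simpa using hz00)))
  have hl0 : l - 1 ≠ 0 := sub_ne_zero.2 fun h => hlF ⟨1, by rw [map_one, h]⟩
  have h7 : (l - 1) * (-algebraMap F L (σ t) + algebraMap F L t * l) = 0 := by
    linear_combination l * h5 - algebraMap F L (σ t) * hl
  have h8 := (mul_eq_zero.1 h7).resolve_left hl0
  exact ⟨σ t / t, by
    rw [map_div₀, div_eq_iff (by simpa using ht0 : algebraMap F L t ≠ 0)]
    linear_combination -h8⟩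

/-- All isotropic vectors for the form over the ground field are centres. -/
theorem all_centres [Finite V] (hr : (finrank F L).Prime) (h35 : finrank F L = 3 ∨ finrank F L = 5)
    (hm : (finrank L V = 2 ∧ 2 * finrank F L * Nat.card (fixd σ) < Nat.card (fixd σ) ^ finrank F L) ∨
      4 ≤ finrank L V) (hns : ¬ M ≤ semiLin F L V) {y : V}
    (hy : Tr (B y y) = 0) : Centre σ B M y := by
  have hm2 : 2 ≤ finrank L V := by omega
  obtain ⟨w, hw, hww, hcw⟩ := exists_centre hB hr h35 (by omega) hns
  obtain ⟨z₀, hz₀c, hz₀⟩ := exists_aniso_centre hB hr hm hw hww hcw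
  set ρ := B z₀ z₀ with hρ
  have hρτ : τ ρ = ρ := self_fixed hB z₀
  have hz : ∀ z, B z z = ρ → Centre σ B M z := fun z hzz => by
    obtain ⟨g, hg, hgz⟩ := exists_map hB hm2 hz₀ hzz
    rw [← hgz]; exact centre_image hB hz₀c hg
  -- isotropic vectors
  have hiso : ∀ u, B u u = 0 → Centre σ B M u := by
    intro u huu
    rcases eq_or_ne u 0 with rfl | hu
    · refine ⟨by rw [zero_left hB, map_zero], fun c _ => ⟨1, M.one_mem, fun y => by simp⟩⟩
    obtain ⟨e, hee, heu, hue⟩ := exists_partner hB hu huu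
    obtain ⟨f, hf, hf'⟩ := exists_skew (conj hB)
    obtain ⟨l, hl, hl'⟩ := exists_real_trace (conj hB) (n := (1 : L)) one_ne_zero
    have hl0 : f • l ≠ 0 := smul_ne_zero hf fun h => hl' (by rw [h, zero_mul, map_zero])
    obtain ⟨k, hk⟩ : ∃ k, k = τ (f • l) := ⟨_, rfl⟩
    have hk0 : τ k ≠ 0 := by rw [hk, hB.invol]; exact hl0
    obtain ⟨a, ha⟩ := exists_trace_sum hB (r := ρ) hρτ
    set z₁ := (a / τ k) • u + k • e with hz₁
    have hB1 : B u z₁ = f • l := by
      rw [hz₁, add_right hB, smul_right hB, smul_right hB, huu, hue, hk, hB.invol]; simp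
    have hz₁1 : B z₁ z₁ = ρ := by
      have h1 : a / τ k * τ k = a := div_mul_cancel₀ _ hk0
      have h2 := congrArg τ h1
      rw [map_mul, hB.invol] at h2
      rw [hz₁]
      simp only [hB.add_left, add_right hB, hB.smul_left, smul_right hB, huu, hee, heu, hue]
      linear_combination h1 + h2 + ha
    have hB2 : B z₁ u = -(f • l) := by
      rw [hB.herm, hB1, τ_smul (conj hB), hl, eq_neg_of_add_eq_zero_right hf', neg_smul]
    have hz₂ : B (z₁ - u) (z₁ - u) = ρ := by
      rw [sub_left hB, sub_right hB, sub_right hB, hz₁1, hB1, hB2, huu]; ring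
    have h := centre_line hB (hz z₁ hz₁1) (hz _ hz₂) (a := 1) (b := -1) (by
      rw [sub_right hB, map_sub, (hz z₁ hz₁1).1, hB2, map_neg, map_smul, zero_sub, neg_neg, smul_eq_mul]
      rw [mul_one] at hl'
      exact mul_ne_zero hf hl') (by
      rw [show (1 : F) • z₁ + (-1 : F) • (z₁ - u) = u by module, huu, map_zero])
    rwa [show (1 : F) • z₁ + (-1 : F) • (z₁ - u) = u by module] at h
  by_cases hyy : B y y = 0
  · exact hiso y hyy
  obtain ⟨β, hβ, hβ'⟩ : ∃ β, β + τ β = B y y ∧ Tr β ≠ 0 := by
    obtain ⟨t, ht⟩ := exists_trace_sum hB (r := B y y) (self_fixed hB y)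
    by_cases h0 : Tr t ≠ 0
    · exact ⟨t, ht, h0⟩
    push Not at h0
    obtain ⟨f, hf, hf'⟩ := exists_skew (conj hB)
    obtain ⟨l, hl, hl'⟩ := exists_real_trace (conj hB) (n := (1 : L)) one_ne_zero
    refine ⟨t + f • l, ?_, ?_⟩
    · rw [map_add, τ_smul (conj hB), hl, eq_neg_of_add_eq_zero_right hf', neg_smul, ← ht]; ring
    · rw [map_add, h0, zero_add, map_smul, smul_eq_mul]
      rw [mul_one] at hl'
      exact mul_ne_zero hf hl'
  obtain ⟨z, hzy, hzz⟩ := exists_orth_aniso hB hm2 hyy
  obtain ⟨l, hl⟩ := exists_norm_real hB (r := -(β * τ β / (B y y * B z z))) (by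
    rw [map_neg, map_div₀, map_mul, map_mul, hB.invol, self_fixed hB, self_fixed hB, mul_comm (τ β)])
  set u := (β / B y y) • y + l • z with hu
  have huy : B u y = β := by
    rw [hu, hB.add_left, hB.smul_left, hB.smul_left, hzy, mul_zero, add_zero, div_mul_cancel₀ _ hyy]
  have huu : B u u = 0 := by
    rw [hu, norm_add_smul hB, hB.smul_left, hB.smul_left, smul_right hB, orth_comm hB hzy,
      smul_right hB, hzy, map_div₀, self_fixed hB, hl]
    field_simp
    ring
  have hdd : B (y - u) (y - u) = 0 := by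
    rw [sub_left hB, sub_right hB, sub_right hB, huy, hB.herm u y, huy, huu]
    linear_combination -hβ
  have h := centre_line hB (hiso u huu) (hiso _ hdd) (a := 1) (b := 1) (by
    rw [sub_right hB, map_sub, huu, map_zero, sub_zero, huy]; exact hβ') (by
    rw [show (1 : F) • u + (1 : F) • (y - u) = y by module]; exact hy)
  rwa [show (1 : F) • u + (1 : F) • (y - u) = y by module] at h

end CfsgLib.C3Unit91
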